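import Cfsg.Agent.Geom.Design
import Cfsg.Agent.Geom.ONanMain

/-!
Ito's theorem: a doubly transitive symmetric design with an axial automorphism.
-/

set_option autoImplicit false

namespace Cfsg.Agent.Geom

open MulAction Subgroup

/-- A symmetric design with a doubly transitive group. -/
structure GD (G Ω B : Type*) [Group G] [MulAction G Ω] [MulAction G B] where
  I : Ω → B → Prop
  k : ℕ
  l : ℕ
  cP : ∀ x, {C | I x C}.ncard = k
  cB : ∀ C, {x | I x C}.ncard = k
  lP : ∀ x y, x ≠ y → {C | I x C ∧ I y C}.ncard = l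
  lB : ∀ C D, C ≠ D → {x | I x C ∧ I x D}.ncard = l
  hk : l + 2 ≤ k
  card : Nat.card Ω = Nat.card B
  inv : ∀ (g : G) x C, I (g • x) (g • C) ↔ I x C
  faith : ∀ g : G, (∀ x : Ω, g • x = x) → g = 1
  two : ∀ x y x' y' : Ω, x ≠ y → x' ≠ y' → ∃ g : G, g • x = x' ∧ g • y = y'
  ntriv : Nontrivial Ω

namespace GD

variable {G Ω B : Type*} [Group G] [MulAction G Ω] [MulAction G B] [Finite G] [Finite Ω]
  [Finite B] (D : GD G Ω B)

include D in
theorem fix_eq (g : G) : {x : Ω | g • x = x}.ncard = {C : B | g • C = C}.ncard :=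
  brauer D.I D.k D.l D.card D.cP D.lP (by have := D.hk; omega) (toPerm g) (toPerm g) (D.inv g)

theorem trans :
    (∀ C E C' E' : B, C ≠ E → C' ≠ E' → ∃ g : G, g • C = C' ∧ g • E = E') ∧
    ∀ x x' C C', (D.I x C ↔ D.I x' C') → ∃ g : G, g • x = x' ∧ g • C = C' :=
  haveI := D.ntriv
  design_trans D.I D.k D.l D.card D.cP D.lP (by have := D.hk; omega) D.inv D.two

include D in
theorem faithB {g : G} (h : ∀ C : B, g • C = C) : g = 1 := by
  apply D.faith
  have h1 := D.fix_eq g
  rw [show {C : B | g • C = C} = Set.univ from Set.eq_univ_of_forall h, Set.ncard_univ, ← D.card,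
    ← Set.ncard_univ] at h1
  have := Set.eq_of_subset_of_ncard_le (Set.subset_univ _) h1.ge
  exact Set.eq_univ_iff_forall.1 this

omit [Finite G] [Finite B] in
theorem eq_of_big {C E : B} {s : Set Ω} (hs : D.l < s.ncard) (h : ∀ x ∈ s, D.I x C ∧ D.I x E) :
    C = E := by
  by_contra hne
  have := Set.ncard_le_ncard (show s ⊆ {x | D.I x C ∧ D.I x E} from h)
  rw [D.lB C E hne] at this
  omega

/-- elements fixing a block pointwise -/
def Ax (A : B) (g : G) : Prop := ∀ x, D.I x A → g • x = x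

omit [Finite G] [Finite B] in
theorem Ax.fix {D : GD G Ω B} {A : B} {g : G} (hg : D.Ax A g) : g • A = A :=
  D.eq_of_big (s := {x | D.I x A}) (by rw [D.cB]; have := D.hk; omega) fun x hx =>
    ⟨by rw [← hg x hx, D.inv]; exact hx, hx⟩

omit [Finite G] [Finite B] in
theorem Ax.fixblock {D : GD G Ω B} {A C : B} {g : G} (hg : D.Ax A g) {y : Ω} (hy : ¬ D.I y A)
    (h1 : D.I y C) (h2 : D.I y (g • C)) : g • C = C := by
  by_cases h : C = A
  · rw [h, hg.fix]
  refine D.eq_of_big (s := insert y {x | D.I x C ∧ D.I x A}) ?_ ?_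
  · rw [Set.ncard_insert_of_notMem (fun h => hy h.2), D.lB C A h]; omega
  · rintro x (rfl | hx)
    · exact ⟨h2, h1⟩
    · exact ⟨by rw [← hg x hx.2, D.inv]; exact hx.1, hx.1⟩

omit [Finite G] [Finite B] in
theorem Ax.fixblock' {D : GD G Ω B} {A C : B} {g : G} (hg : D.Ax A g) {y : Ω} (hy : ¬ D.I y A)
    (h1 : D.I y C) (h2 : g • y = y) : g • C = C :=
  hg.fixblock hy h1 (by rw [← h2, D.inv]; exact h1)

omit [Finite G] [Finite B] in
theorem card_diff {A C : B} (h : C ≠ A) : {x | D.I x C ∧ ¬ D.I x A}.ncard + D.l = D.k := by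
  rw [← D.lB C A h, ← D.cB C, ← Set.ncard_union_eq]
  · congr 1; ext x; simp only [Set.mem_union, Set.mem_setOf_eq]; tauto
  · rw [Set.disjoint_left]; exact fun x h1 h2 => h1.2 h2.2

theorem Ax.unique {D : GD G Ω B} {A : B} {g : G} (hg : D.Ax A g) (hg1 : g ≠ 1) {x y : Ω}
    (hx : ¬ D.I x A) (hy : ¬ D.I y A) (ex : g • x = x) (ey : g • y = y) : x = y := by
  by_contra hxy
  have key : ∀ x w, ¬ D.I x A → g • x = x → g • w ≠ w →
      {C | D.I x C ∧ D.I w C} = {C | D.I w C ∧ D.I (g • w) C} := by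
    intro x w hx ex hw
    refine Set.eq_of_subset_of_ncard_le (fun C hC => ⟨hC.2, ?_⟩) ?_
    · rw [← hg.fixblock' hx hC.1 ex, D.inv]; exact hC.2
    · rw [D.lP _ _ hw.symm, D.lP x w (by rintro rfl; exact hw ex)]
  have key2 : ∀ w, g • w ≠ w → ∀ C, D.I x C → D.I y C → D.I w C := by
    intro w hw
    have h1 : {C | D.I x C ∧ D.I w C} = {C | D.I x C ∧ D.I y C} := by
      refine Set.eq_of_subset_of_ncard_le (fun C hC => ⟨hC.1, ?_⟩) ?_
      · rw [key x w hx ex hw, ← key y w hy ey hw] at hC; exact hC.1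
      · rw [D.lP x y hxy, D.lP x w (by rintro rfl; exact hw ex)]
    intro C h2 h3
    have : C ∈ {C | D.I x C ∧ D.I w C} := by rw [h1]; exact ⟨h2, h3⟩
    exact this.2
  obtain ⟨C, hC⟩ : ∃ C : B, g • C ≠ C := by
    by_contra! h; exact hg1 (D.faithB h)
  have hCA : C ≠ A := by rintro rfl; exact hC hg.fix
  have h2 : 1 < {x | D.I x C ∧ ¬ D.I x A}.ncard := by
    have := D.card_diff hCA; have := D.hk; omega
  obtain ⟨w, hw, w', hw', hne⟩ := (Set.one_lt_ncard (Set.toFinite _)).1 h2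
  have h3 : {C | D.I x C ∧ D.I y C} = {C | D.I w C ∧ D.I w' C} := by
    refine Set.eq_of_subset_of_ncard_le (fun E hE => ⟨key2 w (fun e => hC ?_) E hE.1 hE.2,
      key2 w' (fun e => hC ?_) E hE.1 hE.2⟩) ?_
    · exact hg.fixblock' hw.2 hw.1 e
    · exact hg.fixblock' hw'.2 hw'.1 e
    · rw [D.lP _ _ hne, D.lP x y hxy]
  have : C ∈ {C | D.I x C ∧ D.I y C} := by rw [h3]; exact ⟨hw.1, hw'.1⟩
  exact hC (hg.fixblock' hx this.1 ex)

/-- translations -/
def Tr (A : B) (g : G) : Prop := D.Ax A g ∧ ∀ x, ¬ D.I x A → g • x ≠ x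

omit [Finite G] [Finite Ω] [Finite B] in
theorem Ax.conj {D : GD G Ω B} {A : B} {g : G} (hg : D.Ax A g) (h : G) :
    D.Ax (h • A) (h * g * h⁻¹) := fun x hx => by
  rw [mul_smul, mul_smul, hg _ (by rw [← D.inv h, smul_inv_smul]; exact hx), smul_inv_smul]

omit [Finite G] [Finite Ω] [Finite B] in
theorem Tr.conj {D : GD G Ω B} {A : B} {g : G} (hg : D.Tr A g) (h : G) :
    D.Tr (h • A) (h * g * h⁻¹) := ⟨hg.1.conj h, fun x hx e => hg.2 (h⁻¹ • x)
      (by rw [← D.inv h, smul_inv_smul]; exact hx) (by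
        rw [mul_smul, mul_smul] at e
        exact eq_inv_smul_iff.2 e)⟩

omit [Finite G] in
include D in
theorem exists_ne_block (A : B) : ∃ C, C ≠ A := by
  haveI := D.ntriv
  haveI : Nontrivial B := by
    rw [← Finite.one_lt_card_iff_nontrivial, ← D.card, Finite.one_lt_card_iff_nontrivial]
    infer_instance
  exact exists_ne A

/-- the pointwise stabiliser -/
def KK (A : B) : Subgroup G where
  carrier := {g | D.Ax A g}
  one_mem' := fun _ _ => one_smul _ _
  mul_mem' := fun {a b} ha hb x hx => by rw [mul_smul, hb x hx, ha x hx]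
  inv_mem' := fun {a} ha x hx => inv_smul_eq_iff.2 (ha x hx).symm

theorem exists_Tr {A : B} {g0 : G} (hg0 : D.Ax A g0) (hg1 : g0 ≠ 1) : ∃ g, D.Tr A g := by
  classical
  by_contra! hT
  have hT' : ∀ g ∈ D.KK A, ∃ x, ¬ D.I x A ∧ g • x = x := by
    intro g hg
    by_contra! h
    exact hT g ⟨hg, h⟩
  letI := Fintype.ofFinite G
  letI := Fintype.ofFinite Ω
  obtain ⟨x0, hx0, e0⟩ := hT' g0 hg0
  set κ := Nat.card ↥(D.KK A ⊓ stabilizer G x0) with hκ
  have hκc : ∀ x, ¬ D.I x A → Nat.card ↥(D.KK A ⊓ stabilizer G x) = κ := by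
    have : ∀ x y, ¬ D.I x A → ¬ D.I y A → Nat.card ↥(D.KK A ⊓ stabilizer G x) ≤
        Nat.card ↥(D.KK A ⊓ stabilizer G y) := by
      intro x y hx hy
      obtain ⟨h, rfl, e⟩ := D.trans.2 x y A A (iff_of_false hx hy)
      exact card_le_of_conj h fun a ha => ⟨e ▸ Ax.conj ha.1 h, ON.conj_fix ha.2⟩
    exact fun x hx => le_antisymm (this _ _ hx hx0) (this _ _ hx0 hx)
  have hκ2 : 1 < κ := by
    rw [hκ, Finite.one_lt_card_iff_nontrivial, nontrivial_iff_exists_ne_one]
    exact ⟨g0, ⟨hg0, e0⟩, hg1⟩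
  set m := {x | ¬ D.I x A}.ncard with hm
  -- double counting
  have h1 : m * κ + 1 = m + Nat.card (D.KK A) := by
    let Y : Finset Ω := Finset.univ.filter fun x => ¬ D.I x A
    let K : Finset G := Finset.univ.filter (· ∈ D.KK A)
    have hY : Y.card = m := by
      rw [hm, Set.ncard_eq_toFinset_card']; congr 1; ext; simp [Y]
    have hK : K.card = Nat.card (D.KK A) := by
      rw [Nat.card_eq_fintype_card, Fintype.card_subtype]
    have s1 := Finset.sum_card_bipartiteAbove_eq_sum_card_bipartiteBelow (s := Y) (t := K)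
      (fun x g => g • x = x)
    rw [Finset.sum_const_nat (m := κ), hY,
      ← Finset.add_sum_erase _ _ (a := 1) (by simp [K, one_mem]),
      Finset.sum_const_nat (m := 1), Finset.card_erase_of_mem (by simp [K, one_mem]), hK] at s1
    · have : (Finset.bipartiteBelow (fun x (g : G) => g • x = x) Y 1).card = m := by
        rw [← hY]; congr 1; ext; simp [Finset.mem_bipartiteBelow]
      rw [this] at s1
      have : 0 < Nat.card (D.KK A) := Nat.card_pos
      omega
    · intro g hg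
      rw [Finset.mem_erase] at hg
      have hgK : g ∈ D.KK A := (Finset.mem_filter.1 hg.2).2
      obtain ⟨x, hx, e⟩ := hT' g hgK
      rw [Finset.card_eq_one]
      refine ⟨x, ?_⟩
      ext y
      simp only [Finset.mem_bipartiteBelow, Finset.mem_filter, Finset.mem_univ, true_and,
        Finset.mem_singleton, Y]
      exact ⟨fun h => Ax.unique hgK hg.1 h.1 hx h.2 e, by rintro rfl; exact ⟨hx, e⟩⟩
    · intro x hx
      rw [← hκc x (Finset.mem_filter.1 hx).2, Nat.card_eq_fintype_card, Fintype.card_subtype]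
      congr 1; ext g; simp [K, Finset.mem_bipartiteAbove]
  have hsub : ∀ x, ¬ D.I x A → {b | ∃ h ∈ D.KK A, h • x = b} ⊆ {x | ¬ D.I x A} := by
    rintro x hx _ ⟨h, hh, rfl⟩
    change ¬ D.I _ _
    rw [← Ax.fix hh, D.inv]; exact hx
  have h2 := Pres.card_inf_stabilizer_mul (D.KK A) x0
  rw [← hκ] at h2
  set s := {b | ∃ h ∈ D.KK A, h • x0 = b}.ncard with hs
  have hm2 : 2 ≤ m := by
    obtain ⟨C, hC⟩ := D.exists_ne_block A
    have := Set.ncard_le_ncard (show {x | D.I x C ∧ ¬ D.I x A} ⊆ {x | ¬ D.I x A} from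
      fun x h => h.2)
    have := D.card_diff hC; have := D.hk; omega
  by_cases hall : {x | ¬ D.I x A} ⊆ {b | ∃ h ∈ D.KK A, h • x0 = b}
  · have : s = m := by rw [hs, hm, Set.Subset.antisymm (hsub x0 hx0) hall]
    rw [← h2, this] at h1
    nlinarith
  · rw [Set.not_subset] at hall
    obtain ⟨y, hy, hy'⟩ := hall
    have h3 := Pres.card_inf_stabilizer_mul (D.KK A) y
    rw [hκc y hy, ← h2] at h3
    have h4 := Nat.eq_of_mul_eq_mul_left (by omega) h3
    have h5 := Set.ncard_le_ncard (Set.union_subset (hsub x0 hx0) (hsub y hy))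
    rw [Set.ncard_union_eq, h4, ← hs, ← hm] at h5
    · rw [← h2] at h1
      obtain ⟨κ', hκ'⟩ : ∃ κ', κ = κ' + 2 := ⟨κ - 2, by omega⟩
      rw [hκ'] at h1
      nlinarith
    · rw [Set.disjoint_left]
      rintro _ ⟨a, ha, rfl⟩ ⟨b, hb, e⟩
      exact hy' ⟨b⁻¹ * a, mul_mem (inv_mem hb) ha, by rw [mul_smul, ← e, inv_smul_smul]⟩

theorem Tr.card_fix {D : GD G Ω B} {A : B} {g : G} (hg : D.Tr A g) :
    {C : B | g • C = C}.ncard = D.k := by
  rw [← D.fix_eq, ← D.cB A]
  congr 1
  ext x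
  exact ⟨fun h => by by_contra hx; exact hg.2 x hx h, hg.1 x⟩

omit [Finite G] [Finite B] in
theorem Tr.card_fix_at {D : GD G Ω B} {A : B} {g : G} (hg : D.Tr A g) {x : Ω} (hx : ¬ D.I x A) :
    {C : B | D.I x C ∧ g • C = C}.ncard = D.l := by
  rw [← D.lP x (g • x) (hg.2 x hx).symm]
  congr 1
  ext C
  constructor
  · rintro ⟨h1, h2⟩
    exact ⟨h1, by rw [← h2, D.inv]; exact h1⟩
  · rintro ⟨h1, h2⟩
    refine ⟨h1, hg.1.fixblock (y := g • x) ?_ h2 ((D.inv _ _ _).2 h1)⟩
    rw [← hg.1.fix, D.inv]; exact hx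

theorem Tr.classes {D : GD G Ω B} {A : B} {g : G} (hg : D.Tr A g) {C C' : B} (hC : C ≠ A)
    (hC' : C' ≠ A) (h : ∀ x, D.I x A → (D.I x C ↔ D.I x C')) (e : g • C = C) : g • C' = C' := by
  classical
  letI := Fintype.ofFinite B
  letI := Fintype.ofFinite Ω
  let f : Ω → ℤ := fun x => ({E : B | D.I x E ∧ g • E = E}.ncard : ℕ)
  have key : ∀ C, C ≠ A → (∑ x, if D.I x C ∧ D.I x A then f x else 0) + (D.k - D.l : ℤ) * D.l =
      D.l * D.k + if g • C = C then (D.k - D.l : ℤ) else 0 := by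
    intro C hC
    have h1 : ∑ x, (if D.I x C then f x else 0) =
        ∑ E, if g • E = E then (({x | D.I x C ∧ D.I x E}.ncard : ℕ) : ℤ) else 0 := by
      simp only [f, ncard_eq_sum]
      have : ∀ x, (if D.I x C then ∑ E, (if D.I x E ∧ g • E = E then (1 : ℤ) else 0) else 0) =
          ∑ E, if g • E = E then (if D.I x C ∧ D.I x E then (1 : ℤ) else 0) else 0 := by
        intro x
        split_ifs with h
        · refine Finset.sum_congr rfl fun E _ => ?_
          by_cases h1 : D.I x E <;> by_cases h2 : g • E = E <;> simp [h, h1, h2]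
        · simp [h]
      rw [Finset.sum_congr (by rfl) fun x _ => by convert this x, Finset.sum_comm]
      refine Finset.sum_congr rfl fun E _ => ?_
      split_ifs
      · convert rfl
      · simp
    have h2 : ∑ x, (if D.I x C then f x else 0) = (∑ x, if D.I x C ∧ D.I x A then f x else 0) +
        (D.k - D.l : ℤ) * D.l := by
      have h3 : (D.k - D.l : ℤ) = ({x | D.I x C ∧ ¬ D.I x A}.ncard : ℕ) := by
        rw [← D.card_diff hC]; push_cast; ring
      rw [h3, ncard_eq_sum, Finset.sum_mul, ← Finset.sum_add_distrib]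
      refine Finset.sum_congr rfl fun x _ => ?_
      by_cases h1 : D.I x C <;> by_cases h2 : D.I x A <;> simp [h1, h2, f]
      exact hg.card_fix_at h2
    rw [← h2, h1]
    have h4 : ∀ E, (if g • E = E then (({x | D.I x C ∧ D.I x E}.ncard : ℕ) : ℤ) else 0) =
        D.l * (if g • E = E then 1 else 0) +
          if C = E then (if g • C = C then (D.k - D.l : ℤ) else 0) else 0 := by
      intro E
      by_cases h1 : C = E
      · subst h1
        simp only [and_self, D.cB]
        split_ifs <;> simp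
      · rw [D.lB C E h1]
        split_ifs <;> simp
    rw [Finset.sum_congr rfl fun E _ => h4 E, Finset.sum_add_distrib, ← Finset.mul_sum,
      Finset.sum_ite_eq, if_pos (Finset.mem_univ _), ← hg.card_fix, ncard_eq_sum]
  have h1 := key C hC
  have h2 := key C' hC'
  have h3 : (∑ x, if D.I x C ∧ D.I x A then f x else 0) =
      ∑ x, if D.I x C' ∧ D.I x A then f x else 0 := by
    refine Finset.sum_congr rfl fun x _ => ?_
    by_cases hx : D.I x A
    · simp [h x hx]
    · simp [hx]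
  rw [h3, h2, if_pos e] at h1
  by_contra hne
  rw [if_neg hne] at h1
  have := D.hk
  omega

theorem Tr.fix_smul {D : GD G Ω B} {A : B} {g h : G} (hg : D.Tr A g) (hh : D.Ax A h) {C : B}
    (e : g • C = C) : g • h • C = h • C := by
  by_cases hC : C = A
  · rw [hC, hh.fix, hg.1.fix]
  refine hg.classes hC (fun e' => hC ?_) (fun x hx => ?_) e
  · rw [← hh.fix] at e'; exact smul_left_cancel h e'
  · conv_rhs => rw [← hh x hx, D.inv]

theorem Tr.comm_of_ne {D : GD G Ω B} {A : B} {g h : G} (hg : D.Tr A g) (hh : D.Tr A h)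
    (hne : ¬ ∀ C : B, h • C = C → g • C = C) : g * h = h * g := by
  by_contra hc
  have hc1 : g * h * g⁻¹ * h⁻¹ ≠ 1 := by
    rwa [Ne, mul_inv_eq_one, mul_inv_eq_iff_eq_mul]
  have hcK : g * h * g⁻¹ * h⁻¹ ∈ D.KK A :=
    mul_mem (mul_mem (mul_mem (show g ∈ D.KK A from hg.1) hh.1) (inv_mem hg.1)) (inv_mem hh.1)
  set c := g * h * g⁻¹ * h⁻¹ with hcd
  have h1 : ∀ C : B, g • C = C → c • C = C := by
    intro C e
    have := hg.fix_smul (show D.Ax A h⁻¹ from (D.KK A).inv_mem hh.1) e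
    rw [hcd, mul_smul, mul_smul, mul_smul, inv_smul_eq_iff.2 this.symm, smul_inv_smul, e]
  have h2 : ∀ C : B, h • C = C → c • C = C := by
    intro C e
    have := hh.fix_smul (show D.Ax A g⁻¹ from (D.KK A).inv_mem hg.1) e
    rw [hcd, mul_smul, mul_smul, mul_smul, inv_smul_eq_iff.2 e.symm, this, smul_inv_smul]
  push Not at hne
  obtain ⟨C0, e0, e0'⟩ := hne
  by_cases hT : ∀ x, ¬ D.I x A → c • x ≠ x
  · have h3 := Set.eq_of_subset_of_ncard_le (s := {C : B | g • C = C}) (t := {C : B | c • C = C})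
      h1 (by rw [hg.card_fix, Tr.card_fix ⟨hcK, hT⟩])
    have : C0 ∈ {C : B | g • C = C} := by rw [h3]; exact h2 C0 e0
    exact e0' this
  push Not at hT
  obtain ⟨x, hx, ex⟩ := hT
  have h3 : {C : B | c • C = C}.ncard = D.k + 1 := by
    rw [← D.fix_eq, ← D.cB A, ← Set.ncard_insert_of_notMem (a := x) hx]
    congr 1
    ext y
    constructor
    · intro ey
      by_cases hy : D.I y A
      · exact Or.inr hy
      · exact Or.inl (Ax.unique hcK hc1 hy hx ey ex)
    · rintro (rfl | hy)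
      · exact ex
      · exact hcK y hy
  have h4 := Set.eq_of_subset_of_ncard_le (s := insert A {C : B | D.I x C})
    (t := {C : B | c • C = C}) (by
      rintro C (rfl | hC)
      · exact Ax.fix hcK
      · exact Ax.fixblock' hcK hx hC ex) (by
      rw [h3, Set.ncard_insert_of_notMem (s := {C : B | D.I x C}) hx, D.cP])
  have h5 : {C : B | g • C = C} ⊆ insert A {C : B | D.I x C ∧ g • C = C} := by
    intro C hC
    have : C ∈ insert A {C : B | D.I x C} := by rw [h4]; exact h1 C hC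
    rcases this with h | h
    · exact Or.inl h
    · exact Or.inr ⟨h, hC⟩
  have h6 := (Set.ncard_le_ncard h5).trans (Set.ncard_insert_le _ _)
  rw [hg.card_fix, hg.card_fix_at hx] at h6
  have := D.hk
  omega

theorem Tr.of_comm {D : GD G Ω B} {A : B} {g e : G} (hg : D.Tr A g) (he : D.Ax A e) (he1 : e ≠ 1)
    (hc : g * e = e * g) : D.Tr A e := by
  refine ⟨he, fun x hx ex => hg.2 x hx ?_⟩
  refine he.unique he1 ?_ hx ?_ ex
  · rw [← hg.1.fix, D.inv]; exact hx
  · rw [← mul_smul, ← hc, mul_smul, ex]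

theorem Tr.exists_fix {D : GD G Ω B} {A : B} {g : G} (hg : D.Tr A g) :
    ∃ C, C ≠ A ∧ g • C = C := by
  have h1 : 1 < {C : B | g • C = C}.ncard := by rw [hg.card_fix]; have := D.hk; omega
  obtain ⟨C, hC, E, hE, hne⟩ := (Set.one_lt_ncard (Set.toFinite _)).1 h1
  by_cases h : C = A
  · exact ⟨E, h ▸ hne.symm, hE⟩
  · exact ⟨C, h, hC⟩

omit [Finite G] in
theorem Tr.ne_one {D : GD G Ω B} {A : B} {g : G} (hg : D.Tr A g) : g ≠ 1 := by
  rintro rfl
  obtain ⟨C, hC⟩ := D.exists_ne_block A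
  have h2 : 0 < {x | D.I x C ∧ ¬ D.I x A}.ncard := by
    have := D.card_diff hC; have := D.hk; omega
  obtain ⟨x, hx⟩ := (Set.ncard_pos (Set.toFinite _)).1 h2
  exact hg.2 x hx.2 (one_smul _ _)

theorem Tr.comm {D : GD G Ω B} {A : B} {g h : G} (hg : D.Tr A g) (hh : D.Tr A h) :
    g * h = h * g := by
  by_cases hne : ∀ C : B, h • C = C → g • C = C
  swap
  · exact hg.comm_of_ne hh hne
  obtain ⟨C0, hC0, e0⟩ := hg.exists_fix
  obtain ⟨C1, e1⟩ : ∃ C : B, g • C ≠ C := by
    by_contra! h; exact hg.ne_one (D.faithB h)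
  have hC1 : C1 ≠ A := by rintro rfl; exact e1 hg.1.fix
  obtain ⟨u, hu1, hu2⟩ := D.trans.1 A C0 A C1 hC0.symm hC1.symm
  have ht := hg.conj u
  rw [hu1] at ht
  set t := u * g * u⁻¹ with htd
  have et : t • C1 = C1 := by rw [← hu2]; exact ON.conj_fix e0
  have c1 : g * t = t * g := hg.comm_of_ne ht fun h => e1 (h C1 et)
  have c2 : h * t = t * h := hh.comm_of_ne ht fun h' => e1 (hne C1 (h' C1 et))
  have he : D.Tr A (g * t) := hg.of_comm ((D.KK A).mul_mem hg.1 ht.1) (fun e => e1 (by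
    conv_lhs => rw [← et, ← mul_smul, e, one_smul])) (by rw [mul_assoc, ← c1])
  have c3 : (g * t) * h = h * (g * t) := he.comm_of_ne hh fun h' => by
    have h1 : {C : B | h • C = C} = {C : B | t • C = C} :=
      Set.eq_of_subset_of_ncard_le (fun C hC => by
        have := h' C hC
        rw [c1, mul_smul, hne C hC] at this
        exact this) (by rw [ht.card_fix, hh.card_fix])
    have : C1 ∈ {C : B | h • C = C} := by rw [h1]; exact et
    exact e1 (hne C1 this)
  apply mul_right_cancel (b := t)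
  rw [mul_assoc, c2, ← mul_assoc, c3, mul_assoc]

theorem exists_ON {A : B} {g0 : G} (hg0 : D.Ax A g0) (hg1 : g0 ≠ 1) :
    ∃ S : ON G B, ∀ C, ∀ n ∈ S.N C, n = 1 ∨ D.Tr C n := by
  obtain ⟨t, ht⟩ := D.exists_Tr hg0 hg1
  let N : Subgroup G :=
    { carrier := {g | g = 1 ∨ D.Tr A g}
      one_mem' := Or.inl rfl
      inv_mem' := by
        rintro g (rfl | hg)
        · exact Or.inl inv_one
        · exact Or.inr (hg.of_comm ((D.KK A).inv_mem hg.1) (inv_ne_one.2 hg.ne_one) (by simp))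
      mul_mem' := by
        rintro a b (rfl | ha) hb
        · rwa [one_mul]
        rcases hb with rfl | hb
        · rw [mul_one]; exact Or.inr ha
        by_cases h : a * b = 1
        · exact Or.inl h
        · exact Or.inr (ha.of_comm ((D.KK A).mul_mem ha.1 hb.1) h
            (by rw [mul_assoc, ← ha.comm hb])) }
  obtain ⟨S, hS⟩ := Geom.exists_ON (fun g => D.faithB) D.trans.1 A N (by
      rintro n (rfl | hn)
      · exact one_smul _ _
      · exact hn.1.fix) (by
      rintro g e n (rfl | hn)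
      · exact Or.inl (by simp)
      · exact Or.inr (e ▸ hn.conj g)) (by
      rintro a (rfl | ha) b hb
      · simp
      rcases hb with rfl | hb
      · simp
      · exact ha.comm hb) ⟨t, Or.inr ht, ht.ne_one, ht.exists_fix⟩
  refine ⟨S, fun C n hn => ?_⟩
  obtain ⟨h, rfl, e | e⟩ := hS C n hn
  · left
    rw [← mul_left_cancel_iff (a := h⁻¹), ← mul_right_cancel_iff (a := h), e]; simp
  · right
    have := e.conj h
    rwa [show h * (h⁻¹ * n * h) * h⁻¹ = n by group] at this

end GD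

end Cfsg.Agent.Geom
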