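import Cfsg.Agent.Geom.Ito

/-!
Ito's theorem for a subgroup whose index is the degree.
-/

set_option autoImplicit false

namespace Cfsg.Agent.Geom

open MulAction Subgroup

theorem ncard_smul_eq {G Y : Type*} [Group G] [MulAction G Y] (g : G) (p q : Y → Prop)
    (h : ∀ y, q (g • y) ↔ p y) : {y | q y}.ncard = {y | p y}.ncard := by
  rw [← Set.ncard_image_of_injective {y | p y} (MulAction.injective g)]
  congr 1
  ext y
  constructor
  · intro hy; exact ⟨g⁻¹ • y, (h _).1 (by rw [smul_inv_smul]; exact hy), smul_inv_smul _ _⟩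
  · rintro ⟨y, hy, rfl⟩; exact (h y).2 hy

theorem dcount1 {Ω B : Type*} [Finite Ω] [Finite B] (I : Ω → B → Prop) (r k : ℕ)
    (hr : ∀ x, {C | I x C}.ncard = r) (hk : ∀ C, {x | I x C}.ncard = k) :
    Nat.card Ω * r = Nat.card B * k := by
  classical
  letI := Fintype.ofFinite Ω
  letI := Fintype.ofFinite B
  have h1 : ∑ x : Ω, {C | I x C}.ncard = ∑ C : B, {x | I x C}.ncard := by
    have e1 := fun x => ncard_eq_sum (R := ℕ) (fun C => I x C)
    have e2 := fun C => ncard_eq_sum (R := ℕ) (fun x => I x C)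
    simp only [Nat.cast_id] at e1 e2
    simp only [e1, e2]
    exact Finset.sum_comm
  simpa [hr, hk] using h1

theorem dcount2 {Ω B : Type*} [Finite Ω] [Finite B] (I : Ω → B → Prop) (r k l : ℕ) (x : Ω)
    (hr : {C | I x C}.ncard = r) (hk : ∀ C, {x | I x C}.ncard = k)
    (hl : ∀ y, x ≠ y → {C | I x C ∧ I y C}.ncard = l) :
    l * Nat.card Ω + r = l + r * k := by
  classical
  letI := Fintype.ofFinite Ω
  letI := Fintype.ofFinite B
  have h1 : ∑ y : Ω, {C | I x C ∧ I y C}.ncard = r * k := by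
    have e1 := fun y => ncard_eq_sum (R := ℕ) (fun C => I x C ∧ I y C)
    have e2 := fun C => ncard_eq_sum (R := ℕ) (fun x => I x C)
    have e3 := ncard_eq_sum (R := ℕ) (fun C => I x C)
    simp only [Nat.cast_id] at e1 e2 e3
    simp only [e1]
    rw [Finset.sum_comm, ← hr, e3, Finset.sum_mul]
    refine Finset.sum_congr rfl fun C _ => ?_
    by_cases h : I x C
    · rw [← hk C, e2]; simp [h]
    · simp [h]
  rw [← Finset.add_sum_erase _ _ (Finset.mem_univ x), Finset.sum_const_nat (m := l)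
    (fun y hy => hl y (Finset.mem_erase.1 hy).1.symm), Finset.card_erase_of_mem (Finset.mem_univ _),
    Finset.card_univ, ← Nat.card_eq_fintype_card] at h1
  simp only [and_self, hr] at h1
  haveI : Nonempty Ω := ⟨x⟩
  obtain ⟨n, hn⟩ : ∃ n, Nat.card Ω = n + 1 := ⟨_, (Nat.succ_pred_eq_of_pos Nat.card_pos).symm⟩
  rw [hn] at h1 ⊢
  simp only [Nat.add_sub_cancel] at h1
  nlinarith

theorem ito_main {G Ω : Type*} [Group G] [Finite G] [MulAction G Ω] [FaithfulSMul G Ω] [Finite Ω]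
    (h2 : MulAction.IsMultiplyPretransitive G Ω 2) (H : Subgroup G) (hidx : H.index = Nat.card Ω)
    (hnt : ¬ MulAction.IsPretransitive H Ω) (hfix : ∀ a : Ω, ∃ h : H, h • a ≠ a)
    (hunf : ∃ a : Ω, ∃ h : H, h ≠ 1 ∧ ∀ b ∈ MulAction.orbit H a, h • b = b) :
    ∃ (m : ℕ) (F : Type) (_ : Field F) (_ : Fintype F), 2 ≤ m ∧
      Nat.card Ω = (Fintype.card F ^ (m + 1) - 1) / (Fintype.card F - 1) ∧
      ∃ N : Subgroup G, N.Normal ∧
        Nonempty (N ≃* Matrix.ProjectiveSpecialLinearGroup (Fin (m + 1)) F) ∧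
        Subgroup.centralizer (N : Set G) = ⊥ := by
  obtain ⟨a, h0, h01, h0f⟩ := hunf
  have hf : ∀ g : G, (∀ x : Ω, g • x = x) → g = 1 := fun g hg =>
    FaithfulSMul.eq_of_smul_eq_smul (α := Ω) fun x => by rw [hg, one_smul]
  rw [MulAction.is_two_pretransitive_iff] at h2
  have h2' : ∀ x y x' y' : Ω, x ≠ y → x' ≠ y' → ∃ g : G, g • x = x' ∧ g • y = y' :=
    fun _ _ _ _ h h' => h2 h h'
  let I : Ω → G ⧸ H → Prop := fun x C => ∃ g : G, (g : G ⧸ H) = C ∧ g⁻¹ • x ∈ orbit H a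
  have hI : ∀ x (g : G), I x (g : G ⧸ H) ↔ g⁻¹ • x ∈ orbit H a := by
    intro x g
    refine ⟨?_, fun h => ⟨g, rfl, h⟩⟩
    rintro ⟨g', e, h, hh⟩
    rw [eq_comm, QuotientGroup.eq] at e
    refine ⟨⟨_, e⟩ * h, ?_⟩
    simp only [mul_smul] at hh ⊢
    rw [hh, Subgroup.mk_smul, mul_smul, smul_inv_smul]
  have hinv : ∀ (g : G) x C, I (g • x) (g • C) ↔ I x C := by
    intro g x C
    obtain ⟨c, rfl⟩ := QuotientGroup.mk_surjective C
    rw [MulAction.Quotient.smul_mk, hI, hI, smul_eq_mul, mul_inv_rev, mul_smul, inv_smul_smul]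
  have hc : Nat.card Ω = Nat.card (G ⧸ H) := hidx.symm
  obtain ⟨b, hb⟩ : ∃ b, b ∉ orbit H a := by
    by_contra! h
    apply hnt
    refine ⟨fun x y => ?_⟩
    obtain ⟨u, rfl⟩ := h x
    obtain ⟨v, rfl⟩ := h y
    exact ⟨v * u⁻¹, by simp [mul_smul]⟩
  have hab : a ≠ b := by rintro rfl; exact hb (mem_orbit_self _)
  haveI hnt' : Nontrivial Ω := ⟨⟨a, b, hab⟩⟩
  set k := (orbit H a).ncard with hkd
  have hk : ∀ C, {x | I x C}.ncard = k := by
    intro C
    obtain ⟨c, rfl⟩ := QuotientGroup.mk_surjective C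
    exact ncard_smul_eq c (fun y => y ∈ orbit H a) _ fun y => by rw [hI, inv_smul_smul]
  set r := {C | I a C}.ncard with hrd
  have hr : ∀ x, {C | I x C}.ncard = r := by
    intro x
    obtain ⟨y, hy⟩ := exists_ne x
    obtain ⟨g, rfl, -⟩ := h2' a b x y hab hy.symm
    exact ncard_smul_eq g _ _ fun C => hinv g a C
  set l := {C | I a C ∧ I b C}.ncard with hld
  have hl : ∀ x y, x ≠ y → {C | I x C ∧ I y C}.ncard = l := by
    intro x y hxy
    obtain ⟨g, rfl, rfl⟩ := h2' a b x y hab hxy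
    exact ncard_smul_eq g _ _ fun C => by rw [hinv, hinv]
  have hlr : l < r := by
    refine Set.ncard_lt_ncard ⟨fun C h => h.1, fun h => hb ?_⟩
    have := (h (a := ((1 : G) : G ⧸ H)) ((hI a 1).2 (by simp))).2
    simpa using (hI b 1).1 this
  obtain ⟨hB2, -⟩ := design_trans I r l hc hr hl hlr hinv h2'
  haveI : Nontrivial (G ⧸ H) := by
    rw [← Finite.one_lt_card_iff_nontrivial, ← hc, Finite.one_lt_card_iff_nontrivial]
    infer_instance
  obtain ⟨C0, D0, hCD⟩ := exists_pair_ne (G ⧸ H)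
  set μ := {x | I x C0 ∧ I x D0}.ncard with hμd
  have hμ : ∀ C D, C ≠ D → {x | I x C ∧ I x D}.ncard = μ := by
    intro C D h
    obtain ⟨g, rfl, rfl⟩ := hB2 C0 D0 C D hCD h
    exact ncard_smul_eq g _ _ fun C => by rw [hinv, hinv]
  have hrk : r = k := by
    have := dcount1 I r k hr hk
    rw [hc] at this
    exact Nat.eq_of_mul_eq_mul_left Nat.card_pos this
  have e1 := dcount2 I r k l a rfl hk (hl a)
  have e2 := dcount2 (fun C x => I x C) k r μ C0 (hk C0) hr (hμ C0)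
  rw [← hc] at e2
  have hk2 : 2 ≤ k := by
    obtain ⟨h, hh⟩ := hfix a
    rw [hkd, Nat.succ_le_iff, Set.one_lt_ncard]
    exact ⟨_, mem_orbit a h, _, mem_orbit_self a, hh⟩
  have hkn : k + 2 ≤ Nat.card Ω := by
    obtain ⟨h, hh⟩ := hfix b
    rw [← Set.ncard_add_ncard_compl (orbit H a), ← hkd, add_le_add_iff_left, Nat.succ_le_iff,
      Set.one_lt_ncard]
    refine ⟨_, fun e => hb ?_, b, hb, hh⟩
    obtain ⟨u, hu⟩ := e
    exact ⟨h⁻¹ * u, by simp only [mul_smul] at hu ⊢; rw [hu, inv_smul_smul]⟩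
  rw [hrk] at e1 e2 hr
  have hlμ : μ = l := by
    have : μ * (Nat.card Ω - 1) = l * (Nat.card Ω - 1) := by
      obtain ⟨n, hn⟩ : ∃ n, Nat.card Ω = n + 1 := ⟨Nat.card Ω - 1, by omega⟩
      rw [hn] at e1 e2 ⊢
      simp only [Nat.add_sub_cancel]
      nlinarith
    exact Nat.eq_of_mul_eq_mul_right (by omega) this
  have hlk : l + 2 ≤ k := by
    by_contra! h
    obtain ⟨k', hk'⟩ : ∃ k', k = k' + 1 := ⟨k - 1, by omega⟩
    obtain ⟨n, hn⟩ : ∃ n, Nat.card Ω = n + 1 := ⟨Nat.card Ω - 1, by omega⟩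
    rw [hn, hk'] at e1 hkn
    have h1 : k' ≤ l := by omega
    have h3 : k' + 2 ≤ n := by omega
    have h4 : l * n = (k' + 1) * k' := by nlinarith
    have := Nat.mul_le_mul h1 h3
    nlinarith
  let D : GD G Ω (G ⧸ H) :=
    { I := I, k := k, l := l, cP := hr, cB := hk, lP := hl, lB := hlμ ▸ hμ, hk := hlk, card := hc
      inv := hinv, faith := hf, two := h2', ntriv := hnt' }
  obtain ⟨S, -⟩ := D.exists_ON (A := ((1 : G) : G ⧸ H)) (g0 := h0) (fun x hx =>
    h0f x (by simpa using (hI x 1).1 hx)) (fun e => h01 (Subtype.ext e))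
  obtain ⟨F, iF, iFin, d, φ, hd, -, he⟩ := S.main
  obtain ⟨m, rfl⟩ : ∃ m, d = m + 1 := ⟨d - 1, by omega⟩
  refine ⟨m, F, iF, iFin, by omega, ?_, S.M, S.M_normal, he, S.centralizer_M⟩
  rw [hc, Nat.card_congr φ, Projectivization.card'']
  simp

end Cfsg.Agent.Geom
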