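import Cfsg.Agent.Geom.ItoMain

/-!
Finite projective planes and their collineations: basic facts.
-/

set_option autoImplicit false

namespace Cfsg.Agent.Geom

open MulAction Subgroup

/-- A finite projective plane of order `n`. -/
structure PP (P L : Type*) where
  I : P → L → Prop
  n : ℕ
  hn : 2 ≤ n
  join : ∀ p q, p ≠ q → ∃ l, I p l ∧ I q l
  meet : ∀ l m, l ≠ m → ∃ p, I p l ∧ I p m
  uniq : ∀ {p q l m}, I p l → I q l → I p m → I q m → p = q ∨ l = m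
  cL : ∀ l, {p | I p l}.ncard = n + 1
  cP : ∀ p, {l | I p l}.ncard = n + 1
  neP : Nonempty P
  neL : Nonempty L

/-- the basic configuration -/
def Cfg {P L : Type*} (I : P → L → Prop) (Ps : P → Prop) (Ls : L → Prop) : Prop :=
  ∃ p₁ p₂ p₃ l₁ l₂ l₃, (Ps p₁ ∧ Ps p₂ ∧ Ps p₃) ∧ (Ls l₁ ∧ Ls l₂ ∧ Ls l₃) ∧
    ¬ I p₁ l₂ ∧ ¬ I p₁ l₃ ∧ ¬ I p₂ l₁ ∧ I p₂ l₂ ∧ I p₂ l₃ ∧ ¬ I p₃ l₁ ∧ I p₃ l₂ ∧ ¬ I p₃ l₃

theorem Cfg.dual {P L : Type*} {I : P → L → Prop} {Ps : P → Prop} {Ls : L → Prop}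
    (h : Cfg I Ps Ls) : Cfg (fun l p => I p l) Ls Ps := by
  obtain ⟨p₁, p₂, p₃, l₁, l₂, l₃, hp, hl, h₁₂, h₁₃, h₂₁, h₂₂, h₂₃, h₃₁, h₃₂, h₃₃⟩ := h
  exact ⟨l₁, l₂, l₃, p₁, p₂, p₃, hl, hp, h₂₁, h₃₁, h₁₂, h₂₂, h₃₂, h₁₃, h₂₃, h₃₃⟩

theorem Cfg.mono {P L : Type*} {I : P → L → Prop} {Ps Ps' : P → Prop} {Ls Ls' : L → Prop}
    (h : Cfg I Ps Ls) (h1 : ∀ p, Ps p → Ps' p) (h2 : ∀ l, Ls l → Ls' l) : Cfg I Ps' Ls' := by
  obtain ⟨p₁, p₂, p₃, l₁, l₂, l₃, hp, hl, h⟩ := h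
  exact ⟨p₁, p₂, p₃, l₁, l₂, l₃, ⟨h1 _ hp.1, h1 _ hp.2.1, h1 _ hp.2.2⟩,
    ⟨h2 _ hl.1, h2 _ hl.2.1, h2 _ hl.2.2⟩, h⟩

theorem exists_PP {P L : Type*} [Finite P] [Finite L] (I : P → L → Prop)
    (join : ∀ p q, p ≠ q → ∃ l, I p l ∧ I q l) (meet : ∀ l m, l ≠ m → ∃ p, I p l ∧ I p m)
    (uniq : ∀ {p q l m}, I p l → I q l → I p m → I q m → p = q ∨ l = m)
    (h : Cfg I (fun _ => True) (fun _ => True)) : ∃ π : PP P L, π.I = I := by
  obtain ⟨p₁, p₂, p₃, l₁, l₂, l₃, -, -, h₁₂, h₁₃, h₂₁, h₂₂, h₂₃, h₃₁, h₃₂, h₃₃⟩ := h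
  letI : Membership P L := ⟨fun l p => I p l⟩
  letI : Configuration.ProjectivePlane P L :=
    { exists_point := fun l => by
        by_contra! hh
        rcases uniq (hh p₂) (hh p₃) h₂₂ h₃₂ with e | e
        · exact h₃₃ (e ▸ h₂₃)
        · exact h₁₂ (e ▸ hh p₁)
      exists_line := fun p => by
        by_contra! hh
        rcases uniq (hh l₂) h₂₂ (hh l₃) h₂₃ with e | e
        · exact h₂₁ (e ▸ hh l₁)
        · exact h₃₃ (e ▸ h₃₂)
      eq_or_eq := uniq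
      mkPoint := fun h => (meet _ _ h).choose
      mkPoint_ax := fun h => (meet _ _ h).choose_spec
      mkLine := fun h => (join _ _ h).choose
      mkLine_ax := fun h => (join _ _ h).choose_spec
      exists_config := ⟨p₁, p₂, p₃, l₁, l₂, l₃, h₁₂, h₁₃, h₂₁, h₂₂, h₂₃, h₃₁, h₃₂, h₃₃⟩ }
  exact ⟨{ I := I, n := Configuration.ProjectivePlane.order P L
           hn := Configuration.ProjectivePlane.one_lt_order P L
           join := join, meet := meet, uniq := uniq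
           cL := fun l => Configuration.ProjectivePlane.pointCount_eq P l
           cP := fun p => Configuration.ProjectivePlane.lineCount_eq L p
           neP := ⟨p₁⟩, neL := ⟨l₁⟩ }, rfl⟩

namespace PP

variable {P L : Type*} (π : PP P L)

/-- the dual plane -/
def dual : PP L P where
  I := fun l p => π.I p l
  n := π.n
  hn := π.hn
  join := π.meet
  meet := π.join
  uniq := fun h1 h2 h3 h4 => (π.uniq h1 h3 h2 h4).symm
  cL := π.cP
  cP := π.cL
  neP := π.neL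
  neL := π.neP

theorem eq_line {p q : P} {l m : L} (h : p ≠ q) (h1 : π.I p l) (h2 : π.I q l) (h3 : π.I p m)
    (h4 : π.I q m) : l = m := (π.uniq h1 h2 h3 h4).resolve_left h

theorem eq_pt {p q : P} {l m : L} (h : l ≠ m) (h1 : π.I p l) (h2 : π.I q l) (h3 : π.I p m)
    (h4 : π.I q m) : p = q := (π.uniq h1 h2 h3 h4).resolve_right h

theorem exists_pt (l : L) (x y : P) : ∃ z, π.I z l ∧ z ≠ x ∧ z ≠ y := by
  by_contra! h
  have : {p | π.I p l} ⊆ {x, y} := fun p hp => by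
    by_cases e : p = x
    · exact Or.inl e
    · exact Or.inr (h p hp e)
  have h1 := (Set.ncard_le_ncard this).trans (Set.ncard_insert_le _ _)
  rw [π.cL, Set.ncard_singleton] at h1
  have := π.hn
  omega

theorem exists_line (p : P) (x y : L) : ∃ z, π.I p z ∧ z ≠ x ∧ z ≠ y := π.dual.exists_pt p x y

theorem exists_two (l : L) : ∃ x y, x ≠ y ∧ π.I x l ∧ π.I y l := by
  obtain ⟨p⟩ := π.neP
  obtain ⟨x, hx, -⟩ := π.exists_pt l p p
  obtain ⟨y, hy, h, -⟩ := π.exists_pt l x x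
  exact ⟨x, y, h.symm, hx, hy⟩

theorem exists_off (l : L) : ∃ p, ¬ π.I p l := by
  obtain ⟨x, y, -, hx, -⟩ := π.exists_two l
  obtain ⟨m, hm, hml, -⟩ := π.exists_line x l l
  obtain ⟨z, hz, hzx, -⟩ := π.exists_pt m x x
  exact ⟨z, fun h => hzx (π.eq_pt hml hz hm h hx)⟩

theorem card_two {x y : P} (h : x ≠ y) : {l | π.I x l ∧ π.I y l}.ncard = 1 := by
  obtain ⟨l, h1, h2⟩ := π.join x y h
  rw [Set.ncard_eq_one]
  exact ⟨l, Set.eq_singleton_iff_unique_mem.2 ⟨⟨h1, h2⟩, fun m hm => π.eq_line h hm.1 hm.2 h1 h2⟩⟩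

theorem card_P [Finite P] [Finite L] : Nat.card P = π.n ^ 2 + π.n + 1 := by
  obtain ⟨x⟩ := π.neP
  have := dcount2 π.I _ _ 1 x (π.cP x) π.cL (fun y h => π.card_two h)
  nlinarith

theorem card_L [Finite P] [Finite L] : Nat.card L = π.n ^ 2 + π.n + 1 := π.dual.card_P

theorem card_off [Finite P] [Finite L] (l : L) : {p | ¬ π.I p l}.ncard = π.n ^ 2 := by
  have := Set.ncard_add_ncard_compl {p | π.I p l}
  rw [π.cL, π.card_P] at this
  have e : {p | π.I p l}ᶜ = {p | ¬ π.I p l} := rfl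
  rw [e] at this
  omega

theorem card_diff [Finite P] {l : L} {x : P} (h : π.I x l) : {p | π.I p l ∧ p ≠ x}.ncard = π.n := by
  have := π.cL l
  rw [show {p | π.I p l} = insert x {p | π.I p l ∧ p ≠ x} by
    ext p; by_cases e : p = x <;> simp [e, h], Set.ncard_insert_of_notMem (by simp)] at this
  omega

theorem cfg : Cfg π.I (fun _ => True) (fun _ => True) := by
  obtain ⟨l⟩ := π.neL
  obtain ⟨x, y, hxy, hx, hy⟩ := π.exists_two l
  obtain ⟨m, hm, hml, -⟩ := π.exists_line x l l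
  obtain ⟨k, hk, hkl, hkm⟩ := π.exists_line x l m
  obtain ⟨z, hz, hzx, -⟩ := π.exists_pt k x x
  obtain ⟨w, hw, hwx, hwy⟩ := π.exists_pt l x y
  obtain ⟨r, hr, hrl, -⟩ := π.exists_line w l l
  exact ⟨z, x, y, r, l, m, by simp, by simp, fun h => hzx (π.eq_pt hkl hz hk h hx),
    fun h => hzx (π.eq_pt hkm hz hk h hm), fun h => hwx (π.eq_pt hrl hr h hw hx), hx, hm,
    fun h => hwy (π.eq_pt hrl hr h hw hy), hy, fun h => hxy (π.eq_pt hml hm h hx hy)⟩

/-- the collineation group -/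
def Col : Subgroup (Equiv.Perm P × Equiv.Perm L) where
  carrier := {g | ∀ p l, π.I (g.1 p) (g.2 l) ↔ π.I p l}
  one_mem' := fun _ _ => Iff.rfl
  mul_mem' := fun {a b} ha hb p l => (ha _ _).trans (hb p l)
  inv_mem' := fun {a} ha p l => by
    rw [← ha]; simp

instance Col.actP : MulAction π.Col P where
  smul g p := g.1.1 p
  one_smul _ := rfl
  mul_smul _ _ _ := rfl

instance Col.actL : MulAction π.Col L where
  smul g p := g.1.2 p
  one_smul _ := rfl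
  mul_smul _ _ _ := rfl

end PP

/-- A finite projective plane with a faithful group of collineations. -/
structure PG (G P L : Type*) [Group G] [MulAction G P] [MulAction G L] extends PP P L where
  inv : ∀ (g : G) p l, I (g • p) (g • l) ↔ I p l
  faith : ∀ g : G, (∀ p : P, g • p = p) → g = 1
  faithL : ∀ g : G, (∀ l : L, g • l = l) → g = 1

theorem PP.fix_lines {P L : Type*} (π : PP P L) (σ : P → P) (τ : L → L)
    (h1 : ∀ p l, π.I (σ p) (τ l) ↔ π.I p l) (h2 : ∀ p, σ p = p) (l : L) : τ l = l := by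
  obtain ⟨x, y, hxy, hx, hy⟩ := π.exists_two l
  exact π.eq_line hxy (by rw [← h2 x, h1]; exact hx) (by rw [← h2 y, h1]; exact hy) hx hy

/-- the full collineation group -/
def PP.toPG {P L : Type*} (π : PP P L) : PG π.Col P L :=
  { π with
    inv := fun g => g.2
    faith := fun g h => Subtype.ext (Prod.ext (Equiv.ext h) (Equiv.ext (π.fix_lines _ _ g.2 h)))
    faithL := fun g h => Subtype.ext (Prod.ext
      (Equiv.ext (π.dual.fix_lines _ _ (fun l p => g.2 p l) h)) (Equiv.ext h)) }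

theorem exists_fixed_of_pgroup {G Y : Type*} [Group G] [MulAction G Y] [Finite Y] {p : ℕ}
    [Fact p.Prime] {A : Subgroup G} (hA : IsPGroup p A) (s : Set Y)
    (hs : ∀ a ∈ A, ∀ y ∈ s, a • y ∈ s) (hp : ¬ p ∣ s.ncard) : ∃ y ∈ s, ∀ a ∈ A, a • y = y := by
  let S : SubMulAction A Y := ⟨s, fun a y hy => hs a a.2 y hy⟩
  obtain ⟨y, hy⟩ := hA.nonempty_fixed_point_of_prime_not_dvd_card S hp
  exact ⟨y, y.2, fun a ha => congrArg Subtype.val (hy ⟨a, ha⟩)⟩

theorem exists_fixed_of_invol {G Y : Type*} [Group G] [MulAction G Y] [Finite Y] {g : G}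
    (hg : g * g = 1) (s : Set Y) (hs : ∀ y ∈ s, g • y ∈ s) (hp : Odd s.ncard) :
    ∃ y ∈ s, g • y = y := by
  have h2 : ∀ a ∈ zpowers g, a = 1 ∨ a = g := by
    rintro _ ⟨k, rfl⟩
    have hg2 : g ^ (2 : ℤ) = 1 := by rw [zpow_two, hg]
    rcases Int.even_or_odd' k with ⟨j, rfl | rfl⟩
    · left; simp only [zpow_mul, hg2, one_zpow]
    · right; simp only [zpow_add, zpow_mul, hg2, one_zpow, one_mul, zpow_one]
  obtain ⟨y, hy, h⟩ := exists_fixed_of_pgroup (p := 2) (A := zpowers g) (fun a => ⟨1, by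
      apply Subtype.ext
      rcases h2 a a.2 with e | e
      · simp [e]
      · simp [e, pow_two, hg]⟩) s (fun a ha y hy => by
      rcases h2 a ha with e | e
      · rwa [e, one_smul]
      · rw [e]; exact hs y hy) (by rwa [← even_iff_two_dvd, Nat.not_even_iff_odd])
  exact ⟨y, hy, h g (mem_zpowers g)⟩

namespace PG

variable {G P L : Type*} [Group G] [MulAction G P] [MulAction G L] (π : PG G P L)

/-- the dual -/
def dual : PG G L P :=
  { π.toPP.dual with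
    inv := fun g l p => π.inv g p l
    faith := π.faithL
    faithL := π.faith }

theorem inv' {g : G} {p p' : P} {l l' : L} (h : π.I p l) (e1 : g • p = p') (e2 : g • l = l') :
    π.I p' l' := e1 ▸ e2 ▸ (π.inv g p l).2 h

theorem fix_line {g : G} {p q : P} {l : L} (h : p ≠ q) (hp : g • p = p) (hq : g • q = q)
    (h1 : π.I p l) (h2 : π.I q l) : g • l = l :=
  π.eq_line h (π.inv' h1 hp rfl) (π.inv' h2 hq rfl) h1 h2

theorem fix_pt {g : G} {p : P} {l m : L} (h : l ≠ m) (hl : g • l = l) (hm : g • m = m)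
    (h1 : π.I p l) (h2 : π.I p m) : g • p = p := π.dual.fix_line h hl hm h1 h2

/-- `a` is an axis of `g` -/
def Axis (g : G) (a : L) : Prop := ∀ p, π.I p a → g • p = p

/-- `c` is a centre of `g` -/
def Cen (g : G) (c : P) : Prop := ∀ l, π.I c l → g • l = l

variable {π}

theorem Axis.fix {g : G} {a : L} (h : π.Axis g a) : g • a = a := by
  obtain ⟨x, y, hxy, hx, hy⟩ := π.exists_two a
  exact π.fix_line hxy (h x hx) (h y hy) hx hy

theorem Cen.fix {g : G} {c : P} (h : π.Cen g c) : g • c = c := Axis.fix (π := π.dual) h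

theorem Axis.cen {g : G} {a : L} (h : π.Axis g a) {p : P} (hp : g • p = p) (hpa : ¬ π.I p a) :
    π.Cen g p := fun l hl => by
  obtain ⟨q, h1, h2⟩ := π.meet l a (by rintro rfl; exact hpa hl)
  exact π.fix_line (by rintro rfl; exact hpa h2) hp (h q h2) hl h1

theorem Cen.axis {g : G} {c : P} (h : π.Cen g c) {l : L} (hl : g • l = l) (hc : ¬ π.I c l) :
    π.Axis g l := Axis.cen (π := π.dual) h hl hc

theorem Axis.eq_one {g : G} {a b : L} (ha : π.Axis g a) (hb : π.Axis g b) (h : a ≠ b) : g = 1 := by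
  obtain ⟨o, ho1, ho2⟩ := π.meet a b h
  have h1 : ∀ l, ¬ π.I o l → g • l = l := by
    intro l hl
    obtain ⟨p, hp1, hp2⟩ := π.meet l a (by rintro rfl; exact hl ho1)
    obtain ⟨q, hq1, hq2⟩ := π.meet l b (by rintro rfl; exact hl ho2)
    refine π.fix_line (fun e => hl ?_) (ha p hp2) (hb q hq2) hp1 hq1
    subst e
    rw [π.eq_pt h ho1 hp2 ho2 hq2]; exact hp1
  refine π.faith g fun p => ?_
  by_cases hp : p = o
  · rw [hp]; exact ha o ho1
  obtain ⟨k, hk1, hk2⟩ := π.join p o hp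
  obtain ⟨l, hl, hlk, -⟩ := π.exists_line p k k
  obtain ⟨m, hm, hmk, hml⟩ := π.exists_line p k l
  exact π.fix_pt hml (h1 m fun h => hmk (π.eq_line hp hm h hk1 hk2))
    (h1 l fun h => hlk (π.eq_line hp hl h hk1 hk2)) hm hl

theorem Cen.eq_one {g : G} {a b : P} (ha : π.Cen g a) (hb : π.Cen g b) (h : a ≠ b) : g = 1 :=
  Axis.eq_one (π := π.dual) ha hb h

theorem Axis.unique {g : G} {a b : L} (ha : π.Axis g a) (hb : π.Axis g b) (h : g ≠ 1) : a = b := by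
  by_contra e; exact h (ha.eq_one hb e)

theorem Cen.unique {g : G} {a b : P} (ha : π.Cen g a) (hb : π.Cen g b) (h : g ≠ 1) : a = b := by
  by_contra e; exact h (ha.eq_one hb e)

theorem fix_cases {g : G} {a : L} {c p : P} (ha : π.Axis g a) (hc : π.Cen g c) (h : g ≠ 1)
    (hp : g • p = p) : p = c ∨ π.I p a := by
  by_cases e : π.I p a
  · exact Or.inr e
  · exact Or.inl ((ha.cen hp e).unique hc h)

theorem fix_cases' {g : G} {a l : L} {c : P} (ha : π.Axis g a) (hc : π.Cen g c) (h : g ≠ 1)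
    (hl : g • l = l) : l = a ∨ π.I c l := fix_cases (π := π.dual) hc ha h hl

theorem Axis.exists_cen {g : G} {a : L} (ha : π.Axis g a) : ∃ c, π.Cen g c := by
  by_cases h : ∃ p, ¬ π.I p a ∧ g • p = p
  · obtain ⟨p, h1, h2⟩ := h
    exact ⟨p, ha.cen h2 h1⟩
  push Not at h
  have key : ∀ p, ¬ π.I p a → ∃ m, π.I p m ∧ g • m = m := by
    intro p hp
    obtain ⟨m, h1, h2⟩ := π.join p (g • p) (h p hp).symm
    obtain ⟨d, h3, h4⟩ := π.meet m a (by rintro rfl; exact hp h1)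
    refine ⟨m, h1, π.eq_line (p := g • p) (q := d) ?_ (π.inv' h1 rfl rfl) (π.inv' h3 (ha d h4) rfl)
      h2 h3⟩
    rintro rfl
    exact hp ((π.inv g _ _).1 (ha.fix.symm ▸ h4))
  obtain ⟨p, hp⟩ := π.exists_off a
  obtain ⟨m, hm1, hm2⟩ := key p hp
  have hma : m ≠ a := by rintro rfl; exact hp hm1
  obtain ⟨d, h3, h4⟩ := π.meet m a hma
  refine ⟨d, fun l hl => ?_⟩
  by_cases e1 : l = a
  · rw [e1]; exact ha.fix
  by_cases e2 : l = m
  · rw [e2]; exact hm2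
  obtain ⟨q, hq, hqd, -⟩ := π.exists_pt l d d
  have hqa : ¬ π.I q a := fun h => hqd (π.eq_pt e1 hq hl h h4)
  obtain ⟨m', h5, h6⟩ := key q hqa
  have hmm : m ≠ m' := by rintro rfl; exact hqd (π.eq_pt e2 hq hl h5 h3)
  obtain ⟨e, h7, h8⟩ := π.meet m m' hmm
  have h9 : π.I e a := by
    by_contra h9; exact h e h9 (π.fix_pt hmm hm2 h6 h7 h8)
  rw [π.eq_pt hma h7 h3 h9 h4] at h8
  rw [π.eq_line hqd hq hl h5 h8]; exact h6

theorem Cen.exists_axis {g : G} {c : P} (hc : π.Cen g c) : ∃ a, π.Axis g a :=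
  Axis.exists_cen (π := π.dual) hc

theorem Axis.conj {g : G} {a : L} (ha : π.Axis g a) (h : G) : π.Axis (h * g * h⁻¹) (h • a) :=
  fun p hp => by
    rw [mul_smul, mul_smul, ha _ (π.inv' hp rfl (inv_smul_smul _ _)), smul_inv_smul]

theorem Cen.conj {g : G} {a : P} (ha : π.Cen g a) (h : G) : π.Cen (h * g * h⁻¹) (h • a) :=
  Axis.conj (π := π.dual) ha h

theorem Axis.mul {g h : G} {a : L} (hg : π.Axis g a) (hh : π.Axis h a) : π.Axis (g * h) a :=
  fun p hp => by rw [mul_smul, hh p hp, hg p hp]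

theorem Axis.inv {g : G} {a : L} (hg : π.Axis g a) : π.Axis g⁻¹ a :=
  fun p hp => inv_smul_eq_iff.2 (hg p hp).symm

theorem Cen.mul {g h : G} {a : P} (hg : π.Cen g a) (hh : π.Cen h a) : π.Cen (g * h) a :=
  Axis.mul (π := π.dual) hg hh

theorem Cen.inv {g : G} {a : P} (hg : π.Cen g a) : π.Cen g⁻¹ a := Axis.inv (π := π.dual) hg

variable (π)

theorem invol_smul {Y : Type*} [MulAction G Y] {g : G} (hg : g * g = 1) (y : Y) : g • g • y = y := by
  rw [← mul_smul, hg, one_smul]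

theorem invol_count [Finite P] [Finite L] {g : G} (hg : g * g = 1) {l : L} (hl : g • l = l) {y : P}
    (hy : π.I y l) (hgy : g • y ≠ y) : {z | g • z = z ∧ ¬ π.I z l}.ncard = π.n := by
  refine Eq.trans ?_ (π.dual.card_diff (l := y) (x := l) hy)
  have hex : ∀ z, z ∈ {z | g • z = z ∧ ¬ π.I z l} → ∃ m, π.I y m ∧ π.I z m := fun z hz =>
    π.join y z (by rintro rfl; exact hz.2 hy)
  choose f hf1 hf2 using hex
  have hgyl : π.I (g • y) l := π.inv' hy rfl hl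
  refine Set.ncard_congr f (fun z hz => ⟨hf1 z hz, fun e => hz.2 (e ▸ hf2 z hz)⟩) ?_ ?_
  · intro z z' hz hz' e
    by_contra hne
    have := π.fix_line hne hz.1 hz'.1 (hf2 z hz) (e ▸ hf2 z' hz')
    exact hz.2 (π.eq_line hgy (π.inv' (hf1 z hz) rfl this) (hf1 z hz) hgyl hy ▸ hf2 z hz)
  · rintro m ⟨hm1, hm2⟩
    have hne : m ≠ g • m := fun e =>
      hm2 (π.eq_line hgy (π.inv' hm1 rfl e.symm) hm1 hgyl hy)
    obtain ⟨z, hz1, hz2⟩ := π.meet _ _ hne
    have hzl : ¬ π.I z l := by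
      intro h
      have e := π.eq_pt hm2 hz1 hm1 h hy
      subst e
      have := π.inv' hz2 rfl (invol_smul hg m)
      exact hm2 (π.eq_line hgy this hm1 hgyl hy)
    have hz : z ∈ {z | g • z = z ∧ ¬ π.I z l} :=
      ⟨π.eq_pt hne (π.inv' hz2 rfl (invol_smul hg m)) hz1 (π.inv' hz1 rfl rfl) hz2, hzl⟩
    exact ⟨z, hz, π.eq_line (by rintro rfl; exact hzl hy) (hf1 z hz) (hf2 z hz) hm1 hz1⟩

theorem invol_count' [Finite P] [Finite L] {g : G} (hg : g * g = 1) {l : L} (hl : g • l = l)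
    (ha : ¬ π.Axis g l) : {z : P | g • z = z}.ncard = {z | g • z = z ∧ π.I z l}.ncard + π.n := by
  obtain ⟨y, hy⟩ := not_forall.1 ha
  rw [Classical.not_imp] at hy
  rw [← π.invol_count hg hl hy.1 hy.2, ← Set.ncard_union_eq]
  · congr 1; ext z; simp only [Set.mem_union, Set.mem_setOf_eq]; tauto
  · rw [Set.disjoint_left]; exact fun z h1 h2 => h2.2 h1.2

theorem invol_cases [Finite P] [Finite L] {g : G} (hg : g * g = 1) :
    (∃ a, π.Axis g a) ∨ Cfg π.I (fun p => g • p = p) (fun l => g • l = l) := by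
  by_cases ha : ∃ a, π.Axis g a
  · exact Or.inl ha
  right
  push Not at ha
  obtain ⟨l0⟩ := π.neL
  obtain ⟨y, hy⟩ := not_forall.1 (ha l0)
  rw [Classical.not_imp] at hy
  obtain ⟨l, h1, h2⟩ := π.join _ _ hy.2
  have hl : g • l = l := π.eq_line hy.2 (π.inv' h2 rfl rfl) (π.inv' h1 (invol_smul hg y) rfl) h1 h2
  have h3 := π.invol_count hg hl h2 hy.2
  have h4 : 1 < {z | g • z = z ∧ ¬ π.I z l}.ncard := h3 ▸ π.hn
  obtain ⟨z1, hz1, z2, hz2, hz⟩ := (Set.one_lt_ncard (Set.toFinite _)).1 h4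
  obtain ⟨m, hm1, hm2⟩ := π.join _ _ hz
  have hm : g • m = m := π.fix_line hz hz1.1 hz2.1 hm1 hm2
  have hml : m ≠ l := by rintro rfl; exact hz1.2 hm1
  obtain ⟨d, hd1, hd2⟩ := π.meet m l hml
  have hd : g • d = d := π.fix_pt hml hm hl hd1 hd2
  have h5 : 2 < {z | g • z = z ∧ π.I z m}.ncard :=
    (Set.two_lt_ncard (Set.toFinite _)).2 ⟨z1, ⟨hz1.1, hm1⟩, z2, ⟨hz2.1, hm2⟩, d, ⟨hd, hd1⟩, hz,
      by rintro rfl; exact hz1.2 hd2, by rintro rfl; exact hz2.2 hd2⟩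
  have h6 := π.invol_count' hg hl (ha l)
  have h7 := π.invol_count' hg hm (ha m)
  have h8 : 1 < ({z | g • z = z ∧ π.I z l} \ {d}).ncard := by
    rw [Set.ncard_diff_singleton_of_mem (show d ∈ {z | g • z = z ∧ π.I z l} from ⟨hd, hd2⟩)]
    omega
  obtain ⟨e1, he1, e2, he2, he⟩ := (Set.one_lt_ncard (Set.toFinite _)).1 h8
  have hne : e1 ≠ z1 := by rintro rfl; exact hz1.2 he1.1.2
  obtain ⟨k, hk1, hk2⟩ := π.join _ _ hne
  have he1m : ¬ π.I e1 m := fun h => he1.2 (π.eq_pt hml h hd1 he1.1.2 hd2)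
  refine ⟨z2, e1, e2, m, l, k, ⟨hz2.1, he1.1.1, he2.1.1⟩,
    ⟨hm, hl, π.fix_line hne he1.1.1 hz1.1 hk1 hk2⟩, hz2.2, fun h => he1m ?_, he1m, he1.1.2, hk1,
    fun h => he2.2 (π.eq_pt hml h hd1 he2.1.2 hd2), he2.1.2, fun h => hz1.2 ?_⟩
  · rw [π.eq_line hz hm1 hm2 hk2 h]; exact hk1
  · rw [π.eq_line he he1.1.2 he2.1.2 hk1 h]; exact hk2

include π in
theorem invol_two [Finite P] [Finite L] {g : G} (hg : g * g = 1) :
    ∃ p q : P, p ≠ q ∧ g • p = p ∧ g • q = q := by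
  rcases π.invol_cases hg with ⟨a, ha⟩ | ⟨p₁, p₂, p₃, l₁, l₂, l₃, hp, -, h₁₂, -, -, h₂₂, -⟩
  · obtain ⟨x, y, hxy, hx, hy⟩ := π.exists_two a
    exact ⟨x, y, hxy, ha x hx, ha y hy⟩
  · exact ⟨p₁, p₂, by rintro rfl; exact h₁₂ h₂₂, hp.1, hp.2.1⟩

theorem invol_homology [Finite P] (hodd : Odd π.n) {g : G} (hg : g * g = 1) {a : L}
    (ha : π.Axis g a) : ∃ c, ¬ π.I c a ∧ g • c = c := by
  obtain ⟨c, hc⟩ := ha.exists_cen
  by_cases h : π.I c a
  · obtain ⟨m, hm, hma, -⟩ := π.exists_line c a a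
    obtain ⟨y, hy, e⟩ := exists_fixed_of_invol hg {p | π.I p m ∧ p ≠ c} (fun y hy =>
      ⟨π.inv' hy.1 rfl (hc m hm), fun e => hy.2 (smul_left_cancel g (e.trans hc.fix.symm))⟩)
      (by rwa [π.card_diff hm])
    exact ⟨y, fun h' => hy.2 (π.eq_pt hma hy.1 hm h' h), e⟩
  · exact ⟨c, h, hc.fix⟩

include π in
theorem fix_eq [Finite P] [Finite L] (g : G) :
    {x : P | g • x = x}.ncard = {C : L | g • C = C}.ncard :=
  brauer π.I _ 1 (π.card_P.trans π.card_L.symm) π.cP (fun _ _ h => π.card_two h)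
    (by have := π.hn; omega) (toPerm g) (toPerm g) (π.inv g)

theorem trans [Finite G] [Finite P] [Finite L]
    (h2 : ∀ x y x' y' : P, x ≠ y → x' ≠ y' → ∃ g : G, g • x = x' ∧ g • y = y') :
    (∀ C E C' E' : L, C ≠ E → C' ≠ E' → ∃ g : G, g • C = C' ∧ g • E = E') ∧
    ∀ x x' C C', (π.I x C ↔ π.I x' C') → ∃ g : G, g • x = x' ∧ g • C = C' := by
  obtain ⟨l⟩ := π.neL
  obtain ⟨x, y, hxy, -⟩ := π.exists_two l
  haveI : Nontrivial P := ⟨⟨x, y, hxy⟩⟩
  exact design_trans π.I _ 1 (π.card_P.trans π.card_L.symm) π.cP (fun _ _ h => π.card_two h)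
    (by have := π.hn; omega) π.inv h2

end PG

end Cfsg.Agent.Geom
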