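import Cfsg.Agent.Geom.Plane1

/-!
Involutory homologies and elation groups in planes of odd order.
-/

set_option autoImplicit false

namespace Cfsg.Agent.Geom

open MulAction Subgroup

namespace PG

variable {G P L : Type*} [Group G] [MulAction G P] [MulAction G L] {π : PG G P L}

/-- involutory homologies -/
structure Hom (π : PG G P L) (g : G) (C : P) (a : L) : Prop where
  sq : g * g = 1
  ne : g ≠ 1
  cen : π.Cen g C
  ax : π.Axis g a
  off : ¬ π.I C a

theorem Hom.dual {g : G} {C : P} {a : L} (h : π.Hom g C a) : π.dual.Hom g a C :=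
  ⟨h.sq, h.ne, h.ax, h.cen, h.off⟩

theorem Hom.of_dual {g : G} {C : P} {a : L} (h : π.dual.Hom g a C) : π.Hom g C a :=
  ⟨h.sq, h.ne, h.ax, h.cen, h.off⟩

theorem Hom.conj {g : G} {C : P} {a : L} (h : π.Hom g C a) (u : G) :
    π.Hom (u * g * u⁻¹) (u • C) (u • a) :=
  ⟨by rw [show u * g * u⁻¹ * (u * g * u⁻¹) = u * (g * g) * u⁻¹ by group, h.sq]; group,
    fun e => h.ne (by simpa using e), h.cen.conj u, h.ax.conj u, by rw [π.inv]; exact h.off⟩

theorem Hom.conj' {g : G} {C C' : P} {a a' : L} (h : π.Hom g C a) {u : G} (h1 : u • C = C')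
    (h2 : u • a = a') : π.Hom (u * g * u⁻¹) C' a' := h1 ▸ h2 ▸ h.conj u

theorem Hom.pt {g : G} {C p : P} {a : L} (h : π.Hom g C a) (hp : g • p = p) : p = C ∨ π.I p a :=
  fix_cases h.ax h.cen h.ne hp

theorem Hom.line {g : G} {C : P} {a l : L} (h : π.Hom g C a) (hl : g • l = l) :
    l = a ∨ π.I C l := fix_cases' h.ax h.cen h.ne hl

theorem Hom.inv_eq {g : G} {C : P} {a : L} (h : π.Hom g C a) : g⁻¹ = g :=
  inv_eq_of_mul_eq_one_right h.sq

/-- elations with a given axis -/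
def El (π : PG G P L) (a : L) : Subgroup G where
  carrier := {g | π.Axis g a ∧ ∀ p, ¬ π.I p a → g • p = p → g = 1}
  one_mem' := ⟨fun _ _ => one_smul _ _, fun _ _ _ => rfl⟩
  inv_mem' := fun {g} hg => ⟨hg.1.inv, fun p hp e =>
    inv_eq_one.2 (hg.2 p hp (inv_smul_eq_iff.1 e).symm)⟩
  mul_mem' := fun {g h} hg hh => ⟨hg.1.mul hh.1, fun p hp e => by
    by_cases h1 : h • p = p
    · have := hh.2 p hp h1
      subst this
      rw [mul_one] at e ⊢
      exact hg.2 p hp e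
    have key : ∀ u : G, π.Axis u a → (∀ p, ¬ π.I p a → u • p = p → u = 1) → u • p = h • p →
        ∀ m, π.I p m → π.I (h • p) m → ∃ c, π.Cen u c ∧ π.I c a ∧ π.I c m := by
      intro u hu hu' e m hm1 hm2
      obtain ⟨c, hc⟩ := hu.exists_cen
      have hca : π.I c a := by
        by_contra hca
        have := hu' c hca hc.fix
        subst this
        exact h1 (by rw [← e, one_smul])
      have hcp : c ≠ p := by rintro rfl; exact hp hca
      obtain ⟨k, hk1, hk2⟩ := π.join c p hcp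
      refine ⟨c, hc, hca, ?_⟩
      rw [← π.eq_line h1 (π.inv' hk2 e (hc k hk1)) hk2 hm2 hm1]; exact hk1
    obtain ⟨m, hm1, hm2⟩ := π.join _ _ h1
    obtain ⟨c, hc, hc1, hc2⟩ := key h hh.1 hh.2 rfl m hm2 hm1
    obtain ⟨d, hd, hd1, hd2⟩ := key g⁻¹ hg.1.inv (fun p hp e =>
      inv_eq_one.2 (hg.2 p hp (inv_smul_eq_iff.1 e).symm))
      (by rw [inv_smul_eq_iff, ← mul_smul, e]) m hm2 hm1
    have hma : m ≠ a := by rintro rfl; exact hp hm2
    have := π.eq_pt hma hc2 hd2 hc1 hd1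
    subst this
    have h2 : π.Cen (g * h) c := Cen.mul (by simpa using hd.inv) hc
    exact h2.eq_one ((hg.1.mul hh.1).cen e hp) (by rintro rfl; exact hp hc1)⟩

theorem El.conj {a : L} {g : G} (hg : g ∈ π.El a) (u : G) : u * g * u⁻¹ ∈ π.El (u • a) :=
  ⟨hg.1.conj u, fun p hp e => by
    have := hg.2 (u⁻¹ • p) (fun h => hp (π.inv' h (smul_inv_smul _ _) rfl)) (by
      rw [mul_smul, mul_smul] at e
      exact eq_inv_smul_iff.2 e)
    rw [this]; simp⟩

theorem El.conj' {a a' : L} {g u : G} (hg : g ∈ π.El a) (h : u • a = a') :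
    u * g * u⁻¹ ∈ π.El a' := h ▸ El.conj hg u

theorem El.cen_mem {a : L} {g : G} (hg : g ∈ π.El a) (h1 : g ≠ 1) {c : P} (hc : π.Cen g c) :
    π.I c a := by
  by_contra h; exact h1 (hg.2 c h hc.fix)

theorem El.exists_cen {a : L} {g : G} (hg : g ∈ π.El a) (h1 : g ≠ 1) :
    ∃ c, π.I c a ∧ π.Cen g c := by
  obtain ⟨c, hc⟩ := hg.1.exists_cen
  exact ⟨c, El.cen_mem hg h1 hc, hc⟩

theorem El.dual {a : L} {g : G} (hg : π.Axis g a) {c : P} (hc : π.Cen g c) (hca : π.I c a) :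
    g ∈ π.dual.El c :=
  ⟨hc, fun l hl e => (hc.axis e hl).eq_one hg (by rintro rfl; exact hl hca)⟩

theorem El.of_dual {a : L} {g : G} (hg : π.Axis g a) {c : P} (hc : π.Cen g c) (hca : π.I c a) :
    g ∈ π.El a := El.dual (π := π.dual) hc hg hca

theorem El.line {a : L} {g : G} (hg : g ∈ π.El a) (h1 : g ≠ 1) {c : P} (hc : π.Cen g c) {l : L}
    (hl : g • l = l) : π.I c l := by
  rcases fix_cases' hg.1 hc h1 hl with e | e
  · rw [e]; exact El.cen_mem hg h1 hc
  · exact e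

/-- elations with given centre and axis -/
def TW (π : PG G P L) (a : L) (W : P) : Subgroup G where
  carrier := {g | g ∈ π.El a ∧ π.Cen g W}
  one_mem' := ⟨one_mem _, fun _ _ => one_smul _ _⟩
  inv_mem' := fun hg => ⟨inv_mem hg.1, hg.2.inv⟩
  mul_mem' := fun hg hh => ⟨mul_mem hg.1 hh.1, hg.2.mul hh.2⟩

variable [Finite G] [Finite P] [Finite L]

omit [Finite G] [Finite L] in
theorem El.eq_one (hodd : Odd π.n) {a : L} {g : G} (hg : g ∈ π.El a) (h : g * g = 1) : g = 1 := by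
  obtain ⟨c, hc, e⟩ := π.invol_homology hodd h hg.1
  exact hg.2 c hc e

omit [Finite L] in
theorem El.card_odd (hodd : Odd π.n) (a : L) : Odd (Nat.card (π.El a)) := by
  rw [← Nat.not_even_iff_odd, even_iff_two_dvd]
  intro h
  obtain ⟨x, hx, e⟩ := Local.exists_mem_orderOf_eq_of_dvd_card Nat.prime_two h
  have := El.eq_one hodd hx (by rw [← pow_two, ← e, pow_orderOf_eq_one])
  rw [this, orderOf_one] at e
  omega

omit [Finite L] in
theorem El.sqrt (hodd : Odd π.n) {a : L} {g : G} (hg : g ∈ π.El a) :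
    ∃ k : ℕ, g ^ k * g ^ k = g := by
  obtain ⟨j, hj⟩ := (El.card_odd hodd a).of_dvd_nat (Local.orderOf_dvd_card_of_mem hg)
  refine ⟨j + 1, ?_⟩
  rw [← pow_add, show j + 1 + (j + 1) = orderOf g + 1 by omega, pow_succ, pow_orderOf_eq_one,
    one_mul]

omit [Finite L] in
theorem Hom.orbit (hodd : Odd π.n) {s t : G} {C D : P} {a : L} (hs : π.Hom s C a)
    (ht : π.Hom t D a) : ∃ e ∈ π.El a, e • D = C := by
  by_cases hCD : C = D
  · exact ⟨1, one_mem _, by rw [one_smul, hCD]⟩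
  have hi : t * (s * t) * t⁻¹ = (s * t)⁻¹ := by
    rw [mul_inv_rev, hs.inv_eq, ht.inv_eq, mul_assoc, mul_assoc, ht.sq, mul_one]
  have hr : s * t ∈ π.El a := ⟨hs.ax.mul ht.ax, fun p hp e => by
    by_contra hne
    have h1 := (hs.ax.mul ht.ax).cen e hp
    have h2 := h1.inv.unique (hi ▸ h1.conj t) (inv_ne_one.2 hne)
    rw [mul_smul, ← h2] at e
    exact hCD (((hs.pt e).resolve_right hp).symm.trans ((ht.pt h2.symm).resolve_right hp))⟩
  obtain ⟨k, hk⟩ := El.sqrt hodd hr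
  refine ⟨_, pow_mem hr k, ?_⟩
  have h1 : t * (s * t) ^ k * t⁻¹ = ((s * t) ^ k)⁻¹ := by rw [← conj_pow, hi, inv_pow]
  have h2 : (s * t) ^ k * t * ((s * t) ^ k)⁻¹ = s := by
    rw [← h1, ht.inv_eq]
    calc (s * t) ^ k * t * (t * (s * t) ^ k * t) = (s * t) ^ k * (t * t) * (s * t) ^ k * t := by
          simp only [mul_assoc]
      _ = s := by rw [ht.sq, mul_one, hk, mul_assoc, ht.sq, mul_one]
  exact (h2 ▸ ht.cen.conj ((s * t) ^ k)).unique hs.cen hs.ne

/-- the centres of the involutory homologies with a given axis -/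
def CC (π : PG G P L) (a : L) : Set P := {C | ∃ t, π.Hom t C a}

omit [Finite L] in
theorem Hom.card_CC (hodd : Odd π.n) {t : G} {D : P} {a : L} (ht : π.Hom t D a) :
    (π.CC a).ncard = Nat.card (π.El a) := by
  rw [← Pres.card_inf_stabilizer_mul (π.El a) D]
  have : π.El a ⊓ stabilizer G D = ⊥ := by
    rw [eq_bot_iff]
    exact fun g hg => hg.1.2 D ht.off hg.2
  rw [this, card_bot, one_mul]
  congr 1
  ext C
  exact ⟨fun ⟨s, hs⟩ => hs.orbit hodd ht, fun ⟨e, he, h⟩ => ⟨_, ht.conj' h he.1.fix⟩⟩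

omit [Finite L] in
theorem Hom.meet (hodd : Odd π.n) {t r : G} {C D : P} {l c : L} (ht : π.Hom t C l)
    (hr : π.Hom r D c) (hD : π.I D l) : ∃ E ∈ π.CC l, π.I E c := by
  obtain ⟨E, hE, e⟩ := exists_fixed_of_invol hr.sq (π.CC l)
    (fun y ⟨s, hs⟩ => ⟨_, hs.conj' rfl (hr.cen l hD)⟩)
    (by rw [ht.card_CC hodd]; exact El.card_odd hodd l)
  refine ⟨E, hE, (hr.pt e).resolve_left ?_⟩
  rintro rfl
  exact hE.choose_spec.off hD

omit [Finite L] in
theorem Hom.decomp (hodd : Odd π.n) {r : G} {D U : P} {l c : L} (hr : π.Hom r D c) (hD : π.I D l)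
    (hU : π.I U l) (hUc : π.I U c) {e : G} (he : e ∈ π.El l) :
    ∃ i ∈ π.TW l D, ∃ z ∈ π.TW l U, e = i * z := by
  have hrl : r • l = l := hr.cen l hD
  have hlc : l ≠ c := by rintro rfl; exact hr.off hD
  have hu : e * (r * e⁻¹ * r⁻¹) ∈ π.El l := mul_mem he (El.conj' (inv_mem he) hrl)
  obtain ⟨k, hk⟩ := El.sqrt hodd hu
  set u := e * (r * e⁻¹ * r⁻¹) with hud
  have h1 : r * u * r⁻¹ = u⁻¹ := by
    rw [hud, hr.inv_eq]
    calc r * (e * (r * e⁻¹ * r)) * r = r * e * r * e⁻¹ * (r * r) := by group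
      _ = _ := by rw [hr.sq, mul_inv_rev, mul_inv_rev, mul_inv_rev, hr.inv_eq]; group
  have hi : u ^ k ∈ π.El l := pow_mem hu k
  set i := u ^ k with hid
  have h2 : r * i * r⁻¹ = i⁻¹ := by rw [hid, ← conj_pow, h1, inv_pow]
  have h3 : r * (i⁻¹ * e) * r⁻¹ = i⁻¹ * e := by
    calc r * (i⁻¹ * e) * r⁻¹ = (r * i * r⁻¹)⁻¹ * (r * e * r⁻¹) := by group
      _ = i * (u⁻¹ * e) := by rw [h2, hud]; group
      _ = _ := by rw [← hk]; group
  refine ⟨i, ⟨hi, ?_⟩, i⁻¹ * e, ⟨mul_mem (inv_mem hi) he, ?_⟩, by group⟩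
  · by_cases hi1 : i = 1
    · rw [hi1]; exact fun _ _ => one_smul _ _
    obtain ⟨W, hW, hc⟩ := El.exists_cen hi hi1
    have h4 := (h2 ▸ hc.conj r).unique hc.inv (inv_ne_one.2 hi1)
    rcases hr.pt h4 with e' | e'
    · rw [← e']; exact hc
    · exfalso
      have h5 : π.Axis (i * r * i⁻¹ * r⁻¹) c :=
        Axis.mul (by have := hr.ax.conj i; rwa [hc c e'] at this) hr.ax.inv
      have h6 : i * r * i⁻¹ * r⁻¹ = i * i := by
        calc i * r * i⁻¹ * r⁻¹ = i * (r * i * r⁻¹)⁻¹ := by group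
          _ = _ := by rw [h2, inv_inv]
      rw [h6] at h5
      exact hi1 (El.eq_one hodd hi ((hi.1.mul hi.1).eq_one h5 hlc))
  · have hz : i⁻¹ * e ∈ π.El l := mul_mem (inv_mem hi) he
    generalize i⁻¹ * e = z at h3 hz
    by_cases hz1 : z = 1
    · rw [hz1]; exact fun _ _ => one_smul _ _
    obtain ⟨W, hW, hc⟩ := El.exists_cen hz hz1
    have h4 : z * r * z⁻¹ = r := by
      rw [mul_inv_eq_iff_eq_mul] at h3 ⊢; exact h3.symm
    have h5 := (h4 ▸ hr.ax.conj z).unique hr.ax hr.ne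
    rw [π.eq_pt hlc hU hW hUc (El.line hz hz1 hc h5)]
    exact hc

/-- any two points are fixed by an involutory homology -/
def F1 (π : PG G P L) : Prop :=
  ∀ X Y : P, X ≠ Y → ∃ (r : G) (D : P) (c : L), π.Hom r D c ∧ r • X = X ∧ r • Y = Y

theorem Hom.dich (hodd : Odd π.n) (hF : π.dual.F1) {t : G} {C W : P} {l : L} (ht : π.Hom t C l)
    (hW : π.I W l) : Nat.card (π.El l) = Nat.card (π.TW l W) * π.n ∨
      ∃ r c, π.Hom r W c := by
  by_cases h : ∀ b, π.I W b → b ≠ l → ∃ E ∈ π.CC l, π.I E b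
  · left
    obtain ⟨b0, h1, h2⟩ := π.join W C (by rintro rfl; exact ht.off hW)
    have hb0 : b0 ≠ l := by rintro rfl; exact ht.off h2
    rw [← Pres.card_inf_stabilizer_mul (π.El l) b0]
    congr 1
    · congr 2
      ext g
      constructor
      · rintro ⟨hg, e⟩
        refine ⟨hg, ?_⟩
        by_cases hg1 : g = 1
        · rw [hg1]; exact fun _ _ => one_smul _ _
        obtain ⟨V, hV, hc⟩ := El.exists_cen hg hg1
        rw [π.eq_pt hb0 h1 (El.line hg hg1 hc e) hW hV]; exact hc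
      · rintro ⟨hg, e⟩
        exact ⟨hg, e b0 h1⟩
    · refine Eq.trans ?_ (π.dual.card_diff (l := W) (x := l) hW)
      congr 1
      ext b
      constructor
      · rintro ⟨e, he, rfl⟩
        exact ⟨π.inv' h1 (he.1 W hW) rfl, fun h => hb0 (smul_left_cancel e (h.trans he.1.fix.symm))⟩
      · rintro ⟨hb1, hb2⟩
        obtain ⟨E, ⟨s, hs⟩, hE⟩ := h b hb1 hb2
        obtain ⟨e, he, rfl⟩ := hs.orbit hodd ht
        exact ⟨e, he, π.eq_line (by rintro rfl; exact hs.off hW) (π.inv' h1 (he.1 W hW) rfl)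
          (π.inv' h2 rfl rfl) hb1 hE⟩
  · right
    push Not at h
    obtain ⟨b, hb1, hb2, hb⟩ := h
    obtain ⟨r, c, D, hr, e1, e2⟩ := hF b l hb2
    replace hr := hr.of_dual
    rcases hr.line e2 with e | hD
    · subst e
      exact absurd ((hr.line e1).resolve_left hb2) (hb D ⟨r, hr⟩)
    · rcases hr.line e1 with e | hD'
      · subst e
        obtain ⟨E, hE, h⟩ := ht.meet hodd hr hD
        exact absurd h (hb E hE)
      · rw [π.eq_pt hb2 hb1 hD' hW hD]
        exact ⟨r, c, hr⟩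

omit [Finite P] [Finite L] in
theorem card_TW_mul_le {l : L} {V W : P} (h : V ≠ W) :
    Nat.card (π.TW l V) * Nat.card (π.TW l W) ≤ Nat.card (π.El l) := by
  rw [← Nat.card_prod]
  refine Nat.card_le_card_of_injective
    (fun p => (⟨p.1 * p.2, mul_mem p.1.2.1 p.2.2.1⟩ : π.El l)) ?_
  rintro ⟨a, b⟩ ⟨a', b'⟩ e
  have e1 : (a : G) * b = a' * b' := congrArg Subtype.val e
  have e2 : (a' : G)⁻¹ * a = b' * (b : G)⁻¹ := by
    rw [inv_mul_eq_iff_eq_mul, ← mul_assoc, ← e1]; group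
  have h1 : (a' : G)⁻¹ * a = 1 := (mul_mem (inv_mem a'.2) a.2).2.eq_one
    (e2 ▸ (mul_mem b'.2 (inv_mem b.2)).2) h
  rw [h1, eq_comm, mul_inv_eq_one] at e2
  rw [inv_mul_eq_one] at h1
  exact Prod.ext (Subtype.ext h1.symm) (Subtype.ext e2.symm)

omit [Finite P] [Finite L] in
theorem El.isPGroup {l : L} {V W : P} (h : V ≠ W) {a b : G} (ha : a ∈ π.TW l V) (ha1 : a ≠ 1)
    (hb : b ∈ π.TW l W) (hb1 : b ≠ 1) : ∃ p : ℕ, p.Prime ∧ IsPGroup p (π.El l) := by
  have key : ∀ (p : ℕ) (V : P) (a : G), a ∈ π.TW l V → a ≠ 1 → a ^ p = 1 → ∀ W, W ≠ V →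
      ∀ b ∈ π.TW l W, b ^ p = 1 := by
    intro p V a ha ha1 hap W hWV b hb
    by_cases hb1 : b = 1
    · simp [hb1]
    have hV := El.cen_mem ha.1 ha1 ha.2
    have hW := El.cen_mem hb.1 hb1 hb.2
    have hc : Commute b a := by
      have h1 : π.Cen (b * a * b⁻¹ * a⁻¹) V :=
        Cen.mul (by have := ha.2.conj b; rwa [hb.1.1 V hV] at this) ha.2.inv
      have h2 : π.Cen (b * (a * b⁻¹ * a⁻¹)) W :=
        Cen.mul hb.2 (by have := hb.2.inv.conj a; rwa [ha.1.1 W hW] at this)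
      have := h1.eq_one (by simpa [mul_assoc] using h2) hWV.symm
      rwa [mul_inv_eq_one, mul_inv_eq_iff_eq_mul] at this
    obtain ⟨U, hU⟩ := (mul_mem hb.1 ha.1).1.exists_cen
    have hUW : U ≠ W := by
      rintro rfl
      have := hb.2.inv.mul hU
      rw [inv_mul_cancel_left] at this
      exact ha1 (this.eq_one ha.2 hWV)
    have h3 : (b * a) ^ p ∈ π.TW l U := pow_mem (show b * a ∈ π.TW l U from ⟨mul_mem hb.1 ha.1, hU⟩) p
    rw [hc.mul_pow, hap, mul_one] at h3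
    exact h3.2.eq_one (pow_mem hb p).2 hUW
  obtain ⟨p, hp, hd⟩ := Nat.exists_prime_and_dvd (n := Nat.card (π.TW l V)) (by
    rw [Ne, card_eq_one]
    intro e; rw [e] at ha; exact ha1 ha)
  obtain ⟨x, hx, e⟩ := Local.exists_mem_orderOf_eq_of_dvd_card hp hd
  have hx1 : x ≠ 1 := by rintro rfl; rw [orderOf_one] at e; exact hp.one_lt.ne e
  have h1 := key p V x hx hx1 (e ▸ pow_orderOf_eq_one x)
  have h2 := key p W b hb hb1 (h1 W h.symm b hb) V h
  refine ⟨p, hp, fun g => ⟨1, Subtype.ext ?_⟩⟩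
  obtain ⟨U, hU⟩ := g.2.1.exists_cen
  rw [pow_one]
  by_cases e : U = V
  · exact h2 g ⟨g.2, e ▸ hU⟩
  · exact h1 U e g ⟨g.2, hU⟩

theorem El.partition (l : L) :
    Nat.card (π.El l) + π.n = ∑ᶠ W ∈ {p | π.I p l}, Nat.card (π.TW l W) := by
  classical
  letI := Fintype.ofFinite G
  letI := Fintype.ofFinite P
  let Y : Finset P := Finset.univ.filter fun p => π.I p l
  let K : Finset G := Finset.univ.filter (· ∈ π.El l)
  have hY : Y.card = π.n + 1 := by
    rw [← π.cL l, Set.ncard_eq_toFinset_card']; congr 1; ext; simp [Y]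
  have hK : K.card = Nat.card (π.El l) := by
    rw [Nat.card_eq_fintype_card, Fintype.card_subtype]
  rw [show {p | π.I p l} = (Y : Set P) by ext; simp [Y], finsum_mem_coe_finset]
  have s1 := Finset.sum_card_bipartiteAbove_eq_sum_card_bipartiteBelow (s := Y) (t := K)
    (fun x g => π.Cen g x)
  rw [← Finset.add_sum_erase K _ (a := 1) (by simp [K, one_mem]),
    Finset.sum_const_nat (s := K.erase 1) (m := 1), Finset.card_erase_of_mem (by simp [K, one_mem]),
    hK] at s1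
  · have : (Finset.bipartiteBelow (fun x (g : G) => π.Cen g x) Y 1).card = π.n + 1 := by
      rw [← hY]; congr 1; ext
      rw [Finset.mem_bipartiteBelow]
      exact ⟨fun h => h.1, fun h => ⟨h, fun _ _ => one_smul _ _⟩⟩
    rw [this] at s1
    have h0 : 0 < Nat.card (π.El l) := Nat.card_pos
    rw [show Nat.card (π.El l) + π.n = π.n + 1 + (Nat.card (π.El l) - 1) * 1 by omega, ← s1]
    refine Finset.sum_congr rfl fun W _ => ?_
    rw [Nat.card_eq_fintype_card, Fintype.card_subtype]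
    congr 1; ext g; simp [K, Finset.mem_bipartiteAbove]; rfl
  · intro g hg
    rw [Finset.mem_erase] at hg
    have hgK : g ∈ π.El l := (Finset.mem_filter.1 hg.2).2
    obtain ⟨x, hx, e⟩ := El.exists_cen hgK hg.1
    rw [Finset.card_eq_one]
    refine ⟨x, ?_⟩
    ext y
    simp only [Finset.mem_bipartiteBelow, Finset.mem_filter, Finset.mem_univ, true_and,
      Finset.mem_singleton, Y]
    exact ⟨fun h => h.2.unique e hg.1, by rintro rfl; exact ⟨hx, e⟩⟩

theorem two_centres (hodd : Odd π.n) (hF : π.dual.F1) {t : G} {C V W : P} {l : L}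
    (ht : π.Hom t C l) (h : V ≠ W) {a b : G} (ha : a ∈ π.TW l V) (ha1 : a ≠ 1)
    (hb : b ∈ π.TW l W) (hb1 : b ≠ 1) : ∃ p k : ℕ, p.Prime ∧ π.n = p ^ k := by
  classical
  obtain ⟨p, hp, hP⟩ := El.isPGroup h ha ha1 hb hb1
  haveI := Fact.mk hp
  obtain ⟨k, hk⟩ := IsPGroup.iff_card.1 hP
  suffices π.n ∣ Nat.card (π.El l) by
    rw [hk, Nat.dvd_prime_pow hp] at this
    obtain ⟨j, -, e⟩ := this
    exact ⟨p, j, hp, e⟩
  by_cases h1 : ∃ W, π.I W l ∧ Nat.card (π.El l) = Nat.card (π.TW l W) * π.n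
  · obtain ⟨W, -, e⟩ := h1
    exact ⟨_, by rw [e, mul_comm]⟩
  push Not at h1
  have hV := El.cen_mem ha.1 ha1 ha.2
  have hW := El.cen_mem hb.1 hb1 hb.2
  obtain ⟨W0, hW0, hmax⟩ := Set.exists_max_image {p | π.I p l} (fun W => Nat.card (π.TW l W))
    (Set.toFinite _) ⟨V, hV⟩
  set M := Nat.card (π.TW l W0) with hM
  have hM0 : 0 < M := Nat.card_pos
  have h2 : ∀ U, π.I U l → U ≠ W0 → Nat.card (π.TW l U) * M = Nat.card (π.El l) := by
    intro U hU hne
    refine le_antisymm (card_TW_mul_le hne) ?_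
    obtain ⟨r, c, hr⟩ := (ht.dich hodd hF hU).resolve_left (h1 U hU)
    obtain ⟨Z, hZ1, hZ2⟩ := π.meet l c (by rintro rfl; exact hr.off hU)
    refine le_trans ?_ (Nat.mul_le_mul_left _ (hmax Z hZ1))
    rw [← Nat.card_prod]
    refine Nat.card_le_card_of_surjective
      (fun p : π.TW l U × π.TW l Z => (⟨p.1 * p.2, mul_mem p.1.2.1 p.2.2.1⟩ : π.El l)) ?_
    intro e
    obtain ⟨i, hi, z, hz, h⟩ := hr.decomp hodd hU hZ1 hZ2 e.2
    exact ⟨(⟨i, hi⟩, ⟨z, hz⟩), Subtype.ext h.symm⟩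
  obtain ⟨U, hU, hne, hs⟩ : ∃ U, π.I U l ∧ U ≠ W0 ∧ 1 < Nat.card (π.TW l U) := by
    by_cases e : V = W0
    · refine ⟨W, hW, e ▸ h.symm, ?_⟩
      rw [Finite.one_lt_card_iff_nontrivial, nontrivial_iff_exists_ne_one]
      exact ⟨b, hb, hb1⟩
    · refine ⟨V, hV, e, ?_⟩
      rw [Finite.one_lt_card_iff_nontrivial, nontrivial_iff_exists_ne_one]
      exact ⟨a, ha, ha1⟩
  set s := Nat.card (π.TW l U) with hsd
  have h3 := El.partition (π := π) l
  rw [show {p | π.I p l} = insert W0 {p | π.I p l ∧ p ≠ W0} by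
    ext p; by_cases e : p = W0 <;> simp [e]; exact hW0,
    finsum_mem_insert _ (by simp) (Set.toFinite _),
    finsum_mem_congr rfl (g := fun _ => s) (fun Z hZ => Nat.eq_of_mul_eq_mul_right hM0
      ((h2 Z hZ.1 hZ.2).trans (h2 U hU hne).symm)), finsum_mem_eq_finite_toFinset_sum _
      (Set.toFinite _), Finset.sum_const, ← Set.ncard_eq_toFinset_card, π.card_diff hW0,
      ← h2 U hU hne, smul_eq_mul, ← hM] at h3
  have h4 : M = π.n := by
    obtain ⟨s', hs'⟩ : ∃ s', s = s' + 2 := ⟨s - 2, by omega⟩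
    rw [hs'] at h3
    exact Nat.eq_of_mul_eq_mul_left (show 0 < s' + 1 by omega) (by nlinarith)
  exact ⟨s, by rw [← h2 U hU hne, h4, mul_comm]⟩

end PG

end Cfsg.Agent.Geom
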