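import Cfsg.Agent.Geom.Plane2

/-!
Planes of odd order with many involutory homologies have prime power order.
-/

set_option autoImplicit false

namespace Cfsg.Agent.Geom

open MulAction Subgroup

theorem PP.no_polarity {P L : Type*} [Finite P] [Finite L] (π : PP P L) (α : P → L)
    (hinj : Function.Injective α) (hsym : ∀ X Y, π.I X (α Y) → π.I Y (α X))
    (hoff : ∀ X, ¬ π.I X (α X)) : False := by
  classical
  letI := Fintype.ofFinite P
  obtain ⟨p, hp, hd⟩ := Nat.exists_prime_and_dvd (n := π.n) (by have := π.hn; omega)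
  haveI := Fact.mk hp
  have hn0 : (π.n : ZMod p) = 0 := (ZMod.natCast_eq_zero_iff _ _).2 hd
  let A : Matrix P P (ZMod p) := Matrix.of fun X Y => if π.I X (α Y) then 1 else 0
  let J : Matrix P P (ZMod p) := Matrix.of fun _ _ => 1
  have hc : ∀ (s : Set P) [DecidablePred (· ∈ s)],
      (∑ Z, if Z ∈ s then (1 : ZMod p) else 0) = s.ncard := by
    intro s _
    rw [Finset.sum_boole, Set.ncard_eq_toFinset_card']
    congr 2; ext; simp
  have h1 : A * A = J := by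
    ext X Y
    rw [Matrix.mul_apply]
    have : ∀ Z, A X Z * A Z Y = if Z ∈ {Z | π.I Z (α X) ∧ π.I Z (α Y)} then 1 else 0 := by
      intro Z
      simp only [A, Matrix.of_apply, Set.mem_setOf_eq]
      by_cases h1 : π.I Z (α X)
      · by_cases h2 : π.I Z (α Y) <;> simp [h1, h2, hsym _ _ h1]
      · have : ¬ π.I X (α Z) := fun h => h1 (hsym _ _ h)
        simp [h1, this]
    rw [Finset.sum_congr rfl fun Z _ => this Z, hc]
    by_cases e : X = Y
    · subst e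
      simp only [and_self]
      rw [π.cL]; simp [hn0, J]
    · rw [show {Z | π.I Z (α X) ∧ π.I Z (α Y)}.ncard = 1 from π.dual.card_two (hinj.ne e)]
      simp [J]
  have h2 : J * A = J := by
    ext X Y
    rw [Matrix.mul_apply]
    have : ∀ Z, J X Z * A Z Y = if Z ∈ {Z | π.I Z (α Y)} then 1 else 0 := by
      intro Z; simp [A, J]
    rw [Finset.sum_congr rfl fun Z _ => this Z, hc, π.cL]
    simp [hn0, J]
  have h3 : ∀ k, A ^ (k + 2) = J := by
    intro k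
    induction k with
    | zero => rw [zero_add, pow_two, h1]
    | succ k ih => rw [show k + 1 + 2 = k + 2 + 1 by ring, pow_succ, ih, h2]
  have h4 := ZMod.trace_pow_card A
  obtain ⟨k, hk⟩ : ∃ k, p = k + 2 := ⟨p - 2, by have := hp.two_le; omega⟩
  have h5 : A ^ p = J := by rw [show A ^ p = A ^ (k + 2) by rw [← hk], h3]
  have h6 : A.trace = 0 := by simp [A, Matrix.trace, hoff]
  have h7 : J.trace = 1 := by
    simp only [J, Matrix.trace, Matrix.diag, Matrix.of_apply, Finset.sum_const, Finset.card_univ,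
      nsmul_eq_mul, mul_one]
    rw [← Nat.card_eq_fintype_card, π.card_P]; simp [hn0]
  rw [h5, h6, h7, zero_pow hp.ne_zero] at h4
  exact one_ne_zero h4

namespace PG

variable {G P L : Type*} [Group G] [MulAction G P] [MulAction G L] {π : PG G P L}

/-- the elations on an axis of an involutory homology have a single centre -/
def SC (π : PG G P L) : Prop := ∀ (t : G) (C : P) (l : L), π.Hom t C l → ∀ (a b : G) (V W : P),
  a ∈ π.El l → b ∈ π.El l → a ≠ 1 → b ≠ 1 → π.Cen a V → π.Cen b W → V = W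

theorem SC.axis (h : π.dual.SC) {t : G} {C : P} {l : L} (ht : π.Hom t C l) {a b : G} {k m : L}
    (ha : a ∈ π.El k) (hb : b ∈ π.El m) (ha1 : a ≠ 1) (hb1 : b ≠ 1) (h1 : π.Cen a C)
    (h2 : π.Cen b C) : k = m :=
  h t l C ht.dual a b k m (El.dual ha.1 h1 (El.cen_mem ha ha1 h1))
    (El.dual hb.1 h2 (El.cen_mem hb hb1 h2)) ha1 hb1 ha.1 hb.1

/-- the special flag configuration -/
structure Q (π : PG G P L) (l : L) (U : P) (b : L) (W : P) : Prop where
  hU : π.I U l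
  hUb : π.I U b
  hW : π.I W l
  hWb : ¬ π.I W b
  el : ∃ e ∈ π.El l, e ≠ 1 ∧ π.Cen e U
  homU : ∃ t a, π.Hom t U a
  homW : ∃ t, π.Hom t W b
  cases : ∀ (r : G) D c, π.Hom r D c → r • l = l →
    (c = l ∧ π.I D b) ∨ (D = U ∧ π.I W c) ∨ (D = W ∧ c = b)

theorem Q.conj {l : L} {U : P} {b : L} {W : P} (h : π.Q l U b W) (g : G) :
    π.Q (g • l) (g • U) (g • b) (g • W) where
  hU := (π.inv _ _ _).2 h.hU
  hUb := (π.inv _ _ _).2 h.hUb
  hW := (π.inv _ _ _).2 h.hW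
  hWb := fun e => h.hWb ((π.inv _ _ _).1 e)
  el := by
    obtain ⟨e, h1, h2, h3⟩ := h.el
    exact ⟨_, El.conj h1 g, fun e => h2 (by simpa using e), h3.conj g⟩
  homU := by
    obtain ⟨t, a, ht⟩ := h.homU
    exact ⟨_, _, ht.conj g⟩
  homW := by
    obtain ⟨t, ht⟩ := h.homW
    exact ⟨_, ht.conj g⟩
  cases := fun r D c hr e => by
    rcases h.cases _ _ _ (hr.conj g⁻¹) (by rw [inv_inv, mul_smul, mul_smul, e, inv_smul_smul]) with
      ⟨h1, h2⟩ | ⟨h1, h2⟩ | ⟨h1, h2⟩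
    · exact Or.inl ⟨inv_smul_eq_iff.1 h1, π.inv' h2 (smul_inv_smul _ _) rfl⟩
    · exact Or.inr (Or.inl ⟨inv_smul_eq_iff.1 h1, π.inv' h2 rfl (smul_inv_smul _ _)⟩)
    · exact Or.inr (Or.inr ⟨inv_smul_eq_iff.1 h1, inv_smul_eq_iff.1 h2⟩)

theorem Q.notU (hA : π.dual.SC) {l l' : L} {U U' : P} {b b' : L} {W W' : P} (h : π.Q l U b W)
    (h' : π.Q l' U' b' W') (hne : l ≠ l') : ¬ π.I U l' := by
  intro hU
  obtain ⟨e, h1, h2, h3⟩ := h.el
  obtain ⟨e', h1', h2', h3'⟩ := h'.el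
  obtain ⟨t, a, ht⟩ := h.homU
  by_cases hUU : U = U'
  · subst hUU
    exact hne (hA.axis ht h1 h1' h2 h2' h3 h3')
  have h4 := hA.axis ht (El.conj h1 e') h1 (fun e => h2 (by simpa using e)) h2
    (by have := h3.conj e'; rwa [h1'.1 U hU] at this) h3
  exact hUU (π.eq_pt hne h.hU (El.line h1' h2' h3' h4) hU h'.hU)

theorem Q.two (hF : π.dual.F1) (hA : π.dual.SC) {l l' : L} {U U' : P} {b b' : L} {W W' : P}
    (h : π.Q l U b W) (h' : π.Q l' U' b' W') (hne : l ≠ l') : π.I W l' := by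
  have n1 := h.notU hA h' hne
  have n2 := h'.notU hA h hne.symm
  obtain ⟨r, c, D, hr, e1, e2⟩ := hF l l' hne
  replace hr := hr.of_dual
  rcases h.cases r D c hr e1 with ⟨h1, h2⟩ | ⟨h1, h2⟩ | ⟨h1, h2⟩
  · subst h1
    rcases h'.cases r D c hr e2 with ⟨h3, h4⟩ | ⟨h3, h4⟩ | ⟨h3, h4⟩
    · exact absurd h3 hne
    · obtain ⟨t, ht⟩ := h'.homW
      rcases h.cases t _ _ ht (ht.cen c h4) with ⟨h5, h6⟩ | ⟨h5, h6⟩ | ⟨h5, h6⟩
      · exact absurd (h5 ▸ h4) ht.off
      · exact absurd (h5 ▸ h'.hW) n1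
      · exact h5 ▸ h'.hW
    · exact absurd (h4 ▸ h'.hUb) n2
  · subst h1
    rcases hr.line e2 with e | e
    · exact e ▸ h2
    · exact absurd e n1
  · subst h1 h2
    rcases hr.line e2 with e | e
    · exact absurd (e ▸ h.hUb) n1
    · exact e

theorem Q.false (hF1 : π.F1) (hF : π.dual.F1) (hA : π.dual.SC) {l : L} {U : P} {b : L} {W : P}
    (h : π.Q l U b W) : False := by
  obtain ⟨t, ht⟩ := h.homW
  have key : ∀ (r : G) D c, π.Hom r D c → r • W = W ∧ r • b = b := by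
    intro r D c hr
    have h1 : r • W = W := by
      by_cases e : r • l = l
      · rcases h.cases r D c hr e with ⟨h1, h2⟩ | ⟨h1, h2⟩ | ⟨h1, h2⟩
        · exact hr.ax W (h1 ▸ h.hW)
        · exact hr.ax W h2
        · exact h1 ▸ hr.cen.fix
      · exact π.eq_pt e (h.conj r).hW (h.two hF hA (h.conj r) (Ne.symm e))
          ((h.conj r).two hF hA h e) h.hW
    refine ⟨h1, ?_⟩
    have h2 := ht.conj' h1 rfl
    rcases h.cases _ _ _ h2 (h2.cen l h.hW) with ⟨h3, h4⟩ | ⟨h3, h4⟩ | ⟨h3, h4⟩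
    · exact absurd h4 h.hWb
    · exact absurd (h3 ▸ h.hUb) h.hWb
    · exact h4
  have hbl : b ≠ l := by rintro rfl; exact h.hWb h.hW
  obtain ⟨k, hk, hkl, hkb⟩ := π.exists_line U l b
  obtain ⟨X, hX, hXU, -⟩ := π.exists_pt k U U
  obtain ⟨Y, hY, hYU, hYX⟩ := π.exists_pt k U X
  have hWU : W ≠ U := by rintro rfl; exact h.hWb h.hUb
  have hWk : ¬ π.I W k := fun e => hkl (π.eq_line hWU e hk h.hW h.hU)
  have hXb : ¬ π.I X b := fun e => hkb (π.eq_line hXU hX hk e h.hUb)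
  have hYb : ¬ π.I Y b := fun e => hkb (π.eq_line hYU hY hk e h.hUb)
  obtain ⟨r, D, c, hr, e1, e2⟩ := hF1 X Y hYX.symm
  obtain ⟨e3, e4⟩ := key r D c hr
  rcases hr.line e4 with e | e
  · subst e
    exact hYX (((hr.pt e2).resolve_right hYb).trans ((hr.pt e1).resolve_right hXb).symm)
  · have a1 := (hr.pt e1).resolve_left (by rintro rfl; exact hXb e)
    have a2 := (hr.pt e2).resolve_left (by rintro rfl; exact hYb e)
    have a3 := (hr.pt e3).resolve_left (by rintro rfl; exact h.hWb e)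
    exact hWk (π.eq_line hYX a2 a1 hY hX ▸ a3)

variable [Finite G] [Finite P] [Finite L]

omit [Finite L] in
theorem Hom.CC_sub (hodd : Odd π.n) {t : G} {C U : P} {l b : L} (ht : π.Hom t C l)
    (hcen : ∀ e ∈ π.El l, π.Cen e U) (hUb : π.I U b) (hCb : π.I C b) {E : P} (hE : E ∈ π.CC l) :
    π.I E b := by
  obtain ⟨s, hs⟩ := hE
  obtain ⟨e, he, rfl⟩ := hs.orbit hodd ht
  exact π.inv' hCb rfl (hcen e he b hUb)

omit [Finite L] in
theorem Hom.axis_eq (hodd : Odd π.n) {t : G} {C U : P} {l b : L} (ht : π.Hom t C l)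
    (hcen : ∀ e ∈ π.El l, π.Cen e U) {e : G} (he : e ∈ π.El l) (he1 : e ≠ 1) (hUb : π.I U b)
    (hCb : π.I C b) {r : G} {D : P} {c : L} (hr : π.Hom r D c) (hD : π.I D l) (hDU : D ≠ U) :
    c = b := by
  obtain ⟨Z, hZ1, hZ2⟩ := π.meet l c (by rintro rfl; exact hr.off hD)
  obtain ⟨i, hi, z, hz, h⟩ := hr.decomp hodd hD hZ1 hZ2 he
  rw [hi.2.eq_one (hcen i hi.1) hDU, one_mul] at h
  subst h
  have := hz.2.unique (hcen e he) he1
  subst this
  obtain ⟨E, hE, hEc⟩ := ht.meet hodd hr hD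
  exact π.eq_line (p := E) (q := Z) (by rintro rfl; exact hE.choose_spec.off hZ1) hEc hZ2
    (ht.CC_sub hodd hcen hUb hCb hE) hUb

theorem exists_Q (hodd : Odd π.n) (hF : π.dual.F1) (hC : π.SC) (hA : π.dual.SC) {l b : L} {U : P}
    (hU : π.I U l) (hUb : π.I U b) (hbl : b ≠ l) (hcc : ∀ C, π.I C b → C ≠ U → C ∈ π.CC l)
    (hcen : ∀ e ∈ π.El l, π.Cen e U) : ∃ W, π.Q l U b W := by
  obtain ⟨C, hCb, hCU, -⟩ := π.exists_pt b U U
  obtain ⟨C', hCb', hCU', hCC⟩ := π.exists_pt b U C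
  obtain ⟨t, ht⟩ := hcc C hCb hCU
  obtain ⟨t', ht'⟩ := hcc C' hCb' hCU'
  obtain ⟨e, he, hee⟩ := ht'.orbit hodd ht
  have he1 : e ≠ 1 := by rintro rfl; exact hCC (by rw [← hee, one_smul])
  obtain ⟨t1, a, h1⟩ : ∃ r c, π.Hom r U c := by
    refine (ht.dich hodd hF hU).resolve_left fun h => ?_
    have : π.TW l U = π.El l := by ext g; exact ⟨fun h => h.1, fun h => ⟨h, hcen g h⟩⟩
    rw [this] at h
    have h0 : 0 < Nat.card (π.El l) := Nat.card_pos
    have := π.hn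
    nlinarith
  obtain ⟨E, hE, hEa⟩ := ht.meet hodd h1 hU
  have hEb := ht.CC_sub hodd hcen hUb hCb hE
  obtain ⟨t2, h2⟩ := hE
  have hal : a ≠ l := by rintro rfl; exact h1.off hU
  obtain ⟨W, hWa, hW⟩ := π.meet a l hal
  have hWU : W ≠ U := by rintro rfl; exact h1.off hWa
  have hWb : ¬ π.I W b := fun h => hbl (π.eq_line hWU h hUb hW hU)
  have hEU : E ≠ U := by rintro rfl; exact h2.off hU
  have hcomm : t1 * t2 = t2 * t1 := by
    have a1 : π.Axis (t1 * t2 * t1⁻¹ * t2⁻¹) l :=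
      Axis.mul (by have := h2.ax.conj t1; rwa [h1.cen l hU] at this) h2.ax.inv
    have a2 : π.Axis (t1 * (t2 * t1⁻¹ * t2⁻¹)) a :=
      Axis.mul h1.ax (by have := h1.ax.inv.conj t2; rwa [h2.cen a hEa] at this)
    have := a1.eq_one (by simpa [mul_assoc] using a2) hal.symm
    rwa [mul_inv_eq_one, mul_inv_eq_iff_eq_mul] at this
  have hsq : t1 * t2 * (t1 * t2) = 1 := by
    rw [mul_assoc, ← mul_assoc t2, ← hcomm, mul_assoc, h2.sq, mul_one, h1.sq]
  obtain ⟨y, hy, hyU, hyW⟩ := π.exists_pt l U W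
  have hy1 : (t1 * t2) • y ≠ y := by
    rw [mul_smul, h2.ax y hy]
    intro h
    exact hyW (π.eq_pt hal ((h1.pt h).resolve_left hyU) hWa hy hW)
  have hax : π.Axis (t1 * t2) b := by
    have c1 := π.invol_count hsq (by rw [mul_smul, h2.ax.fix, h1.cen l hU]) hy hy1
    have c2 : {z | (t1 * t2) • z = z ∧ ¬ π.I z l} = {z | π.I z b ∧ z ≠ U} := by
      refine Set.eq_of_subset_of_ncard_le ?_ (by rw [c1, π.card_diff hUb])
      rintro z ⟨hz1, hz2⟩
      have hzU : z ≠ U := by rintro rfl; exact hz2 hU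
      refine ⟨?_, hzU⟩
      by_cases hzE : z = E
      · exact hzE ▸ hEb
      have h3 : t2 • z ≠ z := fun h => hz2 ((h2.pt h).resolve_left hzE)
      have h4 : t1 • z = t2 • z := by
        rw [mul_smul] at hz1
        conv_lhs => rw [← hz1]
        rw [invol_smul h1.sq]
      obtain ⟨k, hk1, hk2⟩ := π.join z U hzU
      obtain ⟨m, hm1, hm2⟩ := π.join z E hzE
      have h5 := π.eq_line h3 (π.inv' hk1 h4 (h1.cen k hk2)) hk1 (π.inv' hm1 rfl (h2.cen m hm2)) hm1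
      subst h5
      rw [← π.eq_line hEU hm2 hk2 hEb hUb]; exact hk1
    intro z hz
    by_cases hzU : z = U
    · rw [hzU, mul_smul, h2.ax U hU, h1.cen.fix]
    · exact (c2.symm.subset ⟨hz, hzU⟩).1
  have h3 : π.Hom (t1 * t2) W b :=
    ⟨hsq, by rintro h; rw [h, one_smul] at hy1; exact hy1 rfl,
      hax.cen (by rw [mul_smul, h2.ax W hW, h1.ax W hWa]) hWb, hax, hWb⟩
  have hEl : ∀ d ∈ π.El b, d = 1 := by
    intro d hd
    by_contra hd1
    obtain ⟨V, hV, hc⟩ := El.exists_cen hd hd1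
    have k1 : ∀ (s : G) D, π.Hom s D l → π.I D b → V = D ∨ π.I V l := fun s D hs hD =>
      hs.pt (hC _ _ _ h3 _ _ _ _ (El.conj' hd (hs.cen b hD)) hd (fun e => hd1 (by simpa using e)) hd1
        (hc.conj s) hc)
    have k2 : π.I V l := by
      rcases k1 t C ht hCb with e | e
      · exact (k1 t' C' ht' hCb').resolve_left (by rw [e]; exact hCC.symm)
      · exact e
    rw [π.eq_pt hbl hV hUb k2 hU] at hc
    exact hbl (hA.axis h1 hd he hd1 he1 hc (hcen e he))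
  refine ⟨W, hU, hUb, hW, hWb, ⟨e, he, he1, hcen e he⟩, ⟨t1, a, h1⟩, ⟨_, h3⟩, ?_⟩
  intro r D c hr hrl
  rcases hr.line hrl with e' | hD
  · subst e'
    exact Or.inl ⟨rfl, ht.CC_sub hodd hcen hUb hCb ⟨r, hr⟩⟩
  right
  by_cases hDU : D = U
  · subst hDU
    refine Or.inl ⟨rfl, ?_⟩
    obtain ⟨d, hd, rfl⟩ := Hom.orbit (π := π.dual) hodd hr.dual h1.dual
    by_cases hd1 : d = 1
    · rw [hd1, one_smul]; exact hWa
    obtain ⟨k, hk, hdk⟩ := El.exists_cen (π := π.dual) hd hd1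
    have hdk' := El.of_dual hdk hd.1 hk
    have := hA.axis h1 hdk' he hd1 he1 hd.1 (hcen e he)
    subst this
    exact π.inv' hWa (hdk W hW) rfl
  · have := ht.axis_eq hodd hcen he he1 hUb hCb hr hD hDU
    subst this
    obtain ⟨d, hd, e⟩ := hr.orbit hodd h3
    rw [hEl d hd, one_smul] at e
    exact Or.inr ⟨e.symm, rfl⟩

theorem El.eq_one_of_SC (hodd : Odd π.n) (hF1 : π.F1) (hF : π.dual.F1) (hC : π.SC)
    (hA : π.dual.SC) {t : G} {C : P} {l : L} (ht : π.Hom t C l) {e : G} (he : e ∈ π.El l) :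
    e = 1 := by
  by_contra he1
  obtain ⟨U, hU, hc⟩ := El.exists_cen he he1
  have hcen : ∀ d ∈ π.El l, π.Cen d U := by
    intro d hd
    by_cases hd1 : d = 1
    · rw [hd1]; exact fun _ _ => one_smul _ _
    obtain ⟨V, -, hV⟩ := El.exists_cen hd hd1
    rw [hC _ _ _ ht _ _ _ _ he hd he1 hd1 hc hV]; exact hV
  obtain ⟨b, hUb, hCb⟩ := π.join U C (by rintro rfl; exact ht.off hU)
  have hbl : b ≠ l := by rintro rfl; exact ht.off hCb
  by_cases h : ∀ W, π.I W l → W ≠ U → ∃ r c, π.Hom r W c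
  · have hcc : ∀ W, π.I W l → W ≠ U → W ∈ π.CC b := by
      intro W hW hWU
      obtain ⟨r, c, hr⟩ := h W hW hWU
      exact ⟨r, ht.axis_eq hodd hcen he he1 hUb hCb hr hW hWU ▸ hr⟩
    obtain ⟨W, hW, hWU, -⟩ := π.exists_pt l U U
    obtain ⟨W', hW', hWU', hWW⟩ := π.exists_pt l U W
    obtain ⟨s, hs⟩ := hcc W hW hWU
    obtain ⟨s', hs'⟩ := hcc W' hW' hWU'
    obtain ⟨f, hf, hff⟩ := hs'.orbit hodd hs
    have hf1 : f ≠ 1 := by rintro rfl; exact hWW (by rw [← hff, one_smul])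
    obtain ⟨V, hV, hfc⟩ := El.exists_cen hf hf1
    have hVl : π.I V l := by
      obtain ⟨k, hk1, hk2⟩ := π.join W V (by rintro rfl; exact hs.off hV)
      rw [← π.eq_line hWW (π.inv' hk1 hff (hfc k hk2)) hk1 hW' hW]; exact hk2
    rw [π.eq_pt hbl hV hUb hVl hU] at hfc
    obtain ⟨W, hQ⟩ := exists_Q hodd hF hC hA hUb hU hbl.symm hcc (fun d hd => by
      by_cases hd1 : d = 1
      · rw [hd1]; exact fun _ _ => one_smul _ _
      obtain ⟨V, -, hV⟩ := El.exists_cen hd hd1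
      rw [hC _ _ _ hs _ _ _ _ hf hd hf1 hd1 hfc hV]; exact hV)
    exact hQ.false hF1 hF hA
  · push Not at h
    obtain ⟨W, hW, hWU, h⟩ := h
    have h1 := (ht.dich hodd hF hW).resolve_right fun ⟨r, c, hr⟩ => h r c hr
    have : π.TW l W = ⊥ := by
      rw [eq_bot_iff]; exact fun g hg => hg.2.eq_one (hcen g hg.1) hWU
    rw [this, card_bot, one_mul, ← ht.card_CC hodd] at h1
    have h2 : π.CC l = {z | π.I z b ∧ z ≠ U} := by
      refine Set.eq_of_subset_of_ncard_le ?_ (by rw [h1, π.card_diff hUb])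
      exact fun E hE => ⟨ht.CC_sub hodd hcen hUb hCb hE, by
        rintro rfl; exact hE.choose_spec.off hU⟩
    obtain ⟨W, hQ⟩ := exists_Q hodd hF hC hA hU hUb hbl (fun C h1 h2' => h2.symm.subset ⟨h1, h2'⟩)
      hcen
    exact hQ.false hF1 hF hA

theorem exists_hom_of_SC (hodd : Odd π.n) (hF1 : π.F1) (hF : π.dual.F1) (hC : π.SC)
    (hA : π.dual.SC) {t : G} {C W : P} {l : L} (ht : π.Hom t C l) (hW : π.I W l) :
    ∃ r c, π.Hom r W c := by
  refine (ht.dich hodd hF hW).resolve_left fun h => ?_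
  have : π.El l = ⊥ := by
    rw [eq_bot_iff]; exact fun g hg => El.eq_one_of_SC hodd hF1 hF hC hA ht hg
  rw [this, card_bot, eq_comm, mul_eq_one] at h
  have := π.hn
  omega

theorem prime_pow_of_F1 (hodd : Odd π.n) (hF1 : π.F1) (hF : π.dual.F1) :
    ∃ p k : ℕ, p.Prime ∧ π.n = p ^ k := by
  by_cases hC : π.SC
  swap
  · simp only [SC, not_forall] at hC
    obtain ⟨t, C, l, ht, a, b, V, W, ha, hb, ha1, hb1, h1, h2, h⟩ := hC
    exact two_centres hodd hF ht h ⟨ha, h1⟩ ha1 ⟨hb, h2⟩ hb1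
  by_cases hA : π.dual.SC
  swap
  · simp only [SC, not_forall] at hA
    obtain ⟨t, C, l, ht, a, b, V, W, ha, hb, ha1, hb1, h1, h2, h⟩ := hA
    exact two_centres (π := π.dual) hodd hF1 ht h ⟨ha, h1⟩ ha1 ⟨hb, h2⟩ hb1
  exfalso
  have hall : ∀ X, ∃ r c, π.Hom r X c := by
    intro X
    obtain ⟨l⟩ := π.neL
    obtain ⟨x, y, hxy, -⟩ := π.exists_two l
    obtain ⟨t, C, l, ht, -⟩ := hF1 x y hxy
    by_cases e : X = C
    · exact ⟨t, l, e ▸ ht⟩
    obtain ⟨k, hk1, hk2⟩ := π.join X C e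
    obtain ⟨r, D, hr⟩ := exists_hom_of_SC (π := π.dual) hodd hF hF1 hA hC ht.dual hk2
    exact exists_hom_of_SC hodd hF1 hF hC hA hr.of_dual hk1
  choose r α hr using hall
  have huniq : ∀ X, ∀ E ∈ π.CC (α X), E = X := by
    rintro X E ⟨s, hs⟩
    obtain ⟨e, he, h⟩ := hs.orbit hodd (hr X)
    rw [← h, El.eq_one_of_SC hodd hF1 hF hC hA hs he, one_smul]
  refine π.no_polarity α (fun X Y e => huniq Y X ⟨r X, e ▸ hr X⟩) (fun X Y h => ?_)
    fun X => (hr X).off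
  obtain ⟨E, hE, h'⟩ := (hr Y).meet hodd (hr X) h
  exact huniq Y E hE ▸ h'

end PG

end Cfsg.Agent.Geom
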