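import Cfsg.Agent.Geom.Plane3
import Cfsg.Agent.Local.HalfTrans

/-!
A two-transitive collineation group of a finite projective plane contains a perspectivity.
-/

set_option autoImplicit false

namespace Cfsg.Agent.Geom

open MulAction Subgroup

theorem pstep {G : Type*} [Group G] [Finite G] {p k : ℕ} [hp : Fact p.Prime] {A H : Subgroup G}
    (hA : A ≤ H) (cA : Nat.card A = p ^ k) (hH : p ^ (k + 1) ∣ Nat.card H) :
    ∃ (B : Subgroup G) (s : G), A ≤ B ∧ B ≤ H ∧ Nat.card B = p ^ (k + 1) ∧ s ∈ B ∧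
      s ∈ normalizer (A : Set G) ∧ s ^ p ∈ A ∧ ∀ K : Subgroup G, A ≤ K → s ∈ K → B ≤ K := by
  obtain ⟨B, h1, h2, cB⟩ := Pres.exists_le_card_pow_succ hA cA hH
  have hi : (A.subgroupOf B).index = p := by
    have := (A.subgroupOf B).card_mul_index
    rw [Pres.card_subgroupOf_of_le h1, cA, cB, pow_succ] at this
    exact Nat.eq_of_mul_eq_mul_left (pow_pos hp.out.pos k) this
  haveI hN : (A.subgroupOf B).Normal := normal_of_index_eq_minFac_card (by
    rw [hi, cB, Nat.pow_minFac (by omega), hp.out.minFac_eq])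
  obtain ⟨s, hsB, hsA⟩ : ∃ s ∈ B, s ∉ A := by
    by_contra! h
    have := le_antisymm h1 h
    rw [← this, cA] at cB
    exact absurd (Nat.pow_right_injective hp.out.two_le cB) (by omega)
  refine ⟨B, s, h1, h2, cB, hsB, (normal_subgroupOf_iff_le_normalizer h1).1 hN hsB, ?_, ?_⟩
  · have := (A.subgroupOf B).pow_index_mem ⟨s, hsB⟩
    rwa [hi] at this
  · intro K hK hsK
    have h3 : A.subgroupOf B ≤ K.subgroupOf B := fun x hx => hK hx
    have h4 := index_dvd_of_le h3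
    rw [hi, Nat.dvd_prime hp.out] at h4
    rcases h4 with h4 | h4
    · rw [index_eq_one, subgroupOf_eq_top] at h4; exact h4
    · have : A.subgroupOf B = K.subgroupOf B := by
        by_contra hne
        have := index_strictAnti (lt_of_le_of_ne h3 hne)
        rw [hi, h4] at this
        exact lt_irrefl _ this
      exact absurd (this.symm.le (show (⟨s, hsB⟩ : B) ∈ K.subgroupOf B from hsK)) hsA

theorem dvd_orbit_of_sylow {G Y : Type*} [Group G] [Finite G] [MulAction G Y] {p k : ℕ}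
    [hp : Fact p.Prime] (S : Sylow p G) {H : Subgroup G} (hS : (S : Subgroup G) ≤ H) (y : Y)
    (h : p ^ k ∣ {b | ∃ h ∈ H, h • y = b}.ncard) :
    p ^ k ∣ {b | ∃ h ∈ (S : Subgroup G), h • y = b}.ncard := by
  have h1 := Pres.card_inf_stabilizer_mul H y
  have h2 := Pres.card_inf_stabilizer_mul (S : Subgroup G) y
  obtain ⟨j, hj⟩ := IsPGroup.iff_card.1 (S.2.to_inf_left (K := stabilizer G y))
  have h3 : p ^ j * p ^ k ∣ Nat.card G :=
    (h1 ▸ mul_dvd_mul (hj ▸ card_dvd_of_le (inf_le_inf_right _ hS)) h).trans (card_subgroup_dvd_card H)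
  rw [← pow_add] at h3
  have h4 := S.pow_dvd_card_of_pow_dvd_card h3
  rw [← h2, hj, pow_add] at h4
  exact Nat.dvd_of_mul_dvd_mul_left (pow_pos hp.out.pos j) h4

theorem dvd_ncard_of_sylow {G Y : Type*} [Group G] [Finite G] [MulAction G Y] [Finite Y] {p k : ℕ}
    [hp : Fact p.Prime] (S : Sylow p G) {H : Subgroup G} (hS : (S : Subgroup G) ≤ H) (s : Set Y)
    (hs : ∀ g ∈ (S : Subgroup G), ∀ y ∈ s, g • y ∈ s)
    (h : ∀ y ∈ s, p ^ k ∣ {b | ∃ h ∈ H, h • y = b}.ncard) : p ^ k ∣ s.ncard := by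
  refine Local.dvd_ncard_of_dvd_index_stabilizer (B := (S : Subgroup G)) _ s (Set.toFinite _)
    (fun b => hs b b.2) fun y hy => ?_
  rw [index_stabilizer]
  convert dvd_orbit_of_sylow S hS y (h y hy) using 2
  ext z
  exact ⟨fun ⟨g, e⟩ => ⟨g, g.2, e⟩, fun ⟨g, hg, e⟩ => ⟨⟨g, hg⟩, e⟩⟩

theorem card_stab2 {G Y Z : Type*} [Group G] [MulAction G Y] [MulAction G Z] (x : Y) (y : Z)
    (h : ∀ x', ∃ g : G, g • x = x') :
    Nat.card ↥(stabilizer G x ⊓ stabilizer G y) *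
      {b | ∃ h ∈ stabilizer G x, h • y = b}.ncard * Nat.card Y = Nat.card G := by
  rw [Pres.card_inf_stabilizer_mul, ← (stabilizer G x).card_mul_index, index_stabilizer,
    show orbit G x = Set.univ from Set.eq_univ_of_forall h, Set.ncard_univ]

/-- fixed points of a subgroup -/
abbrev Fx {G : Type*} [Group G] (A : Subgroup G) (Y : Type*) [MulAction G Y] : Type _ :=
  {y : Y // ∀ a ∈ A, a • y = y}

/-- the permutation induced on fixed points by a normalizing element -/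
def Fx.perm {G : Type*} [Group G] {A : Subgroup G} (Y : Type*) [MulAction G Y] {s : G}
    (hs : s ∈ normalizer (A : Set G)) : Equiv.Perm (Fx A Y) where
  toFun y := ⟨s • y.1, fun a ha => by
    have := y.2 (s⁻¹ * a * s) ((mem_normalizer_iff''.1 hs a).1 ha)
    rw [mul_smul, mul_smul, inv_smul_eq_iff] at this
    exact this⟩
  invFun y := ⟨s⁻¹ • y.1, fun a ha => by
    have := y.2 (s * a * s⁻¹) ((mem_normalizer_iff.1 hs a).1 ha)
    rw [mul_smul, mul_smul, ← eq_inv_smul_iff] at this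
    exact this⟩
  left_inv y := Subtype.ext (inv_smul_smul _ _)
  right_inv y := Subtype.ext (smul_inv_smul _ _)

theorem Fx.image {G Γ Y : Type*} [Group G] [Group Γ] {A B : Subgroup G} [MulAction G Y]
    [MulAction Γ (Fx A Y)] {s : G} {γ : Γ} (h : ∀ y : Fx A Y, (γ • y).1 = s • y.1) (hAB : A ≤ B)
    (hs : s ∈ B) (hB : ∀ K : Subgroup G, A ≤ K → s ∈ K → B ≤ K) :
    Subtype.val '' {y : Fx A Y | γ • y = y} = {y | ∀ a ∈ B, a • y = y} := by
  ext y
  constructor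
  · rintro ⟨y, hy, rfl⟩
    exact hB (stabilizer G y.1) y.2 ((h y).symm.trans (congrArg Subtype.val hy))
  · exact fun hy => ⟨⟨y, fun a ha => hy a (hAB ha)⟩, Subtype.ext ((h _).trans (hy s hs)), rfl⟩

theorem PP.exists_sub {P L : Type*} [Finite P] [Finite L] (π : PP P L) {Ps : P → Prop}
    {Ls : L → Prop} (h1 : ∀ p q l, p ≠ q → Ps p → Ps q → π.I p l → π.I q l → Ls l)
    (h2 : ∀ l m p, l ≠ m → Ls l → Ls m → π.I p l → π.I p m → Ps p) (h : Cfg π.I Ps Ls) :
    ∃ π' : PP {p // Ps p} {l // Ls l}, ∀ p l, π'.I p l ↔ π.I p l := by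
  obtain ⟨π', e⟩ := exists_PP (fun (p : {p // Ps p}) (l : {l // Ls l}) => π.I p l)
    (fun p q hne => by
      obtain ⟨l, a, b⟩ := π.join p q (Subtype.val_injective.ne hne)
      exact ⟨⟨l, h1 _ _ _ (Subtype.val_injective.ne hne) p.2 q.2 a b⟩, a, b⟩)
    (fun p q hne => by
      obtain ⟨l, a, b⟩ := π.meet p q (Subtype.val_injective.ne hne)
      exact ⟨⟨l, h2 _ _ _ (Subtype.val_injective.ne hne) p.2 q.2 a b⟩, a, b⟩)
    (fun a b c d => (π.uniq a b c d).imp Subtype.ext Subtype.ext) (by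
      obtain ⟨p₁, p₂, p₃, l₁, l₂, l₃, hp, hl, h⟩ := h
      exact ⟨⟨p₁, hp.1⟩, ⟨p₂, hp.2.1⟩, ⟨p₃, hp.2.2⟩, ⟨l₁, hl.1⟩, ⟨l₂, hl.2.1⟩, ⟨l₃, hl.2.2⟩,
        by simp, by simp, h⟩)
  exact ⟨π', fun p l => by rw [e]⟩

theorem order_unique {m n : ℕ} (h : m ^ 2 + m + 1 = n ^ 2 + n + 1) : m = n := by
  rcases lt_trichotomy m n with e | e | e
  · nlinarith
  · exact e
  · nlinarith

namespace PG

variable {G P L : Type*} [Group G] [MulAction G P] [MulAction G L] (π : PG G P L)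

theorem baer [Finite P] [Finite L] {g : G} (hg : g * g = 1) (h : g = 1 ∨ ∀ a, ¬ π.Axis g a) :
    Cfg π.I (fun p => g • p = p) (fun l => g • l = l) ∧ ∃ m, {p : P | g • p = p}.ncard = m ^ 2 + m + 1 ∧
      {l : L | g • l = l}.ncard = m ^ 2 + m + 1 ∧ (π.n = m ∨ π.n = m ^ 2) := by
  rcases h with rfl | h
  · refine ⟨π.cfg.mono (fun _ _ => one_smul _ _) (fun _ _ => one_smul _ _), π.n, ?_, ?_, Or.inl rfl⟩
    · simp [π.card_P]
    · simp [π.card_L]
  have hc := (π.invol_cases hg).resolve_left fun ⟨a, ha⟩ => h a ha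
  obtain ⟨π', e⟩ := π.toPP.exists_sub (fun p q l hne a b => π.fix_line hne a b)
    (fun p q l hne a b => π.fix_pt hne a b) hc
  have c1 : {p : P | g • p = p}.ncard = π'.n ^ 2 + π'.n + 1 := π'.card_P
  refine ⟨hc, π'.n, c1, π'.card_L, Or.inr ?_⟩
  obtain ⟨l⟩ := π'.neL
  have c2 := π.invol_count' hg l.2 (h l)
  have c3 : {z | g • z = z ∧ π.I z l}.ncard = π'.n + 1 := by
    rw [← π'.cL l, ← Set.ncard_image_of_injective _ Subtype.val_injective]
    congr 1
    ext z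
    exact ⟨fun hz => ⟨⟨z, hz.1⟩, (e _ _).2 hz.2, rfl⟩, by
      rintro ⟨z, hz, rfl⟩; exact ⟨z.2, (e _ _).1 hz⟩⟩
  omega

/-- the fixed structure of `A` contains a quadrangle -/
def Planar (A : Subgroup G) : Prop :=
  Cfg π.I (fun p => ∀ a ∈ A, a • p = p) (fun l => ∀ a ∈ A, a • l = l)

/-- the fixed subplane of `A`, with a group inducing the normalizer of `A` -/
structure Sub (A : Subgroup G) {Γ : Type*} [Group Γ] [MulAction Γ (Fx A P)] [MulAction Γ (Fx A L)]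
    (π' : PG Γ (Fx A P) (Fx A L)) : Prop where
  I : ∀ p l, π'.I p l ↔ π.I p l
  ind : ∀ s ∈ normalizer (A : Set G), ∃ γ : Γ, (∀ y : Fx A P, (γ • y).1 = s • y.1) ∧
    ∀ y : Fx A L, (γ • y).1 = s • y.1

variable {π}

theorem Sub.dual {A : Subgroup G} {Γ : Type*} [Group Γ] [MulAction Γ (Fx A P)]
    [MulAction Γ (Fx A L)] {π' : PG Γ (Fx A P) (Fx A L)} (h : π.Sub A π') :
    π.dual.Sub A π'.dual :=
  ⟨fun l p => h.I p l, fun s hs => (h.ind s hs).imp fun _ h => h.symm⟩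

theorem Planar.exists_sub [Finite P] [Finite L] {A : Subgroup G} (h : π.Planar A) :
    ∃ π' : PP (Fx A P) (Fx A L), π.Sub A π'.toPG := by
  obtain ⟨π', e⟩ := π.toPP.exists_sub
    (fun p q l hne a b c d g hg => π.fix_line hne (a g hg) (b g hg) c d)
    (fun p q l hne a b c d g hg => π.fix_pt hne (a g hg) (b g hg) c d) h
  exact ⟨π', e, fun s hs => ⟨⟨(Fx.perm P hs, Fx.perm L hs), fun p l => by
    rw [e, e]; exact π.inv s _ _⟩, fun _ => rfl, fun _ => rfl⟩⟩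

/-- two-transitivity on points -/
def Two (π : PG G P L) : Prop :=
  ∀ x y x' y' : P, x ≠ y → x' ≠ y' → ∃ g : G, g • x = x' ∧ g • y = y'

variable [Finite G] [Finite P] [Finite L]

theorem Two.dual (h : π.Two) : π.dual.Two := (π.trans h).1

omit [Finite G] [Finite L] in
theorem Two.trans (h : π.Two) (x x' : P) : ∃ g : G, g • x = x' := by
  obtain ⟨l⟩ := π.neL
  obtain ⟨y, -, h1, h2⟩ := π.exists_pt l x x'
  exact (h x y x' y h1.symm h2.symm).imp fun _ h => h.1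

omit [Finite G] in
theorem Two.card2 (h : π.Two) {x y : P} (hxy : x ≠ y) :
    Nat.card ↥(stabilizer G x ⊓ stabilizer G y) * (π.n ^ 2 + π.n) * (π.n ^ 2 + π.n + 1) =
      Nat.card G := by
  rw [← card_stab2 x y (h.trans x), π.card_P]
  congr 2
  have : {b | ∃ h ∈ stabilizer G x, h • y = b} = {x}ᶜ := by
    ext b
    constructor
    · rintro ⟨g, hg, rfl⟩ e
      exact hxy (smul_left_cancel g (hg.trans e.symm))
    · intro hb
      exact h x y x b hxy (Ne.symm hb)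
  have h1 := Set.ncard_add_ncard_compl {x}
  rw [Set.ncard_singleton, π.card_P] at h1
  rw [this]; omega

theorem Two.orb_off (h : π.Two) {x : P} {l : L} (hx : ¬ π.I x l) :
    {b | ∃ h ∈ stabilizer G l, h • x = b} = {p | ¬ π.I p l} := by
  ext b
  constructor
  · rintro ⟨g, hg, rfl⟩ e
    exact hx ((π.inv g _ _).1 (hg.symm ▸ e))
  · intro hb
    obtain ⟨g, h1, h2⟩ := (π.trans h).2 x b l l (iff_of_false hx hb)
    exact ⟨g, h2, h1⟩

theorem Two.card_anti (h : π.Two) {x : P} {l : L} (hx : ¬ π.I x l) :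
    Nat.card ↥(stabilizer G l ⊓ stabilizer G x) * π.n ^ 2 * (π.n ^ 2 + π.n + 1) =
      Nat.card G := by
  rw [← card_stab2 l x (h.dual.trans l), π.card_L, h.orb_off hx, π.card_off]

theorem exists_axis_even (h : π.Two) (hn : Even π.n) : ∃ g : G, g ≠ 1 ∧ ∃ a, π.Axis g a := by
  obtain ⟨S⟩ : Nonempty (Sylow 2 G) := inferInstance
  obtain ⟨l, -, hl⟩ := exists_fixed_of_pgroup (Y := L) S.2 Set.univ (fun _ _ _ _ => trivial) (by
    rw [Set.ncard_univ, π.card_L, ← even_iff_two_dvd, Nat.not_even_iff_odd]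
    exact ((hn.pow_of_ne_zero two_ne_zero).add hn).add_one)
  obtain ⟨x, hx⟩ := π.exists_off l
  have h1 : 2 ∣ Nat.card (S : Subgroup G) := S.dvd_card_of_dvd_card (by
    rw [← h.card_anti hx]
    exact ((hn.two_dvd.trans (dvd_pow_self _ two_ne_zero)).mul_left _).mul_right _)
  obtain ⟨y, hy, hy1, hyc⟩ := Local.exists_ne_one_mem_centralizer_of_isPGroup S.2 le_normalizer h1
  obtain ⟨z, hz, hzc, hz2⟩ : ∃ z ∈ (S : Subgroup G), z ∈ centralizer ((S : Subgroup G) : Set G) ∧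
      orderOf z = 2 := by
    have hP : IsPGroup 2 ↥((S : Subgroup G) ⊓ centralizer ((S : Subgroup G) : Set G)) :=
      S.2.to_inf_left
    obtain ⟨z, hz, e⟩ := Local.exists_mem_orderOf_eq_of_dvd_card Nat.prime_two
      (hP.card_eq_or_dvd.resolve_left (by
        rw [card_eq_one]; intro e; exact hy1 (e.le ⟨hy, hyc⟩)))
    exact ⟨z, hz.1, hz.2, e⟩
  refine ⟨z, by rintro rfl; simp at hz2, l, ?_⟩
  by_contra ha
  obtain ⟨y, hy⟩ := not_forall.1 ha
  rw [Classical.not_imp] at hy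
  have c1 := π.invol_count (by rw [← pow_two, ← hz2, pow_orderOf_eq_one]) (hl z hz) hy.1 hy.2
  have hn0 : π.n ≠ 0 := by have := π.hn; omega
  have c2 := dvd_ncard_of_sylow (k := 2 * π.n.factorization 2) S (H := stabilizer G l) hl
    {w | z • w = w ∧ ¬ π.I w l} (fun g hg w hw => ⟨by
      rw [← mul_smul, ← hzc g hg, mul_smul, hw.1], fun e => hw.2 ((π.inv g _ _).1
        ((hl g hg).symm ▸ e))⟩) (fun w hw => by
      rw [h.orb_off hw.2, π.card_off, mul_comm, pow_mul]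
      exact pow_dvd_pow_of_dvd (Nat.ordProj_dvd _ _) _)
  rw [c1, Nat.prime_two.pow_dvd_iff_le_factorization hn0] at c2
  have := Nat.prime_two.factorization_pos_of_dvd hn0 hn.two_dvd
  omega

/-- good subgroups -/
def Good (π : PG G P L) (A : Subgroup G) : Prop :=
  IsPGroup 2 A ∧ π.Planar A ∧ ∃ m j : ℕ, {p : P | ∀ a ∈ A, a • p = p}.ncard = m ^ 2 + m + 1 ∧
    {p : L | ∀ a ∈ A, a • p = p}.ncard = m ^ 2 + m + 1 ∧ π.n = m ^ j

omit [Finite G] [Finite P] [Finite L] in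
theorem Good.dual {A : Subgroup G} (h : π.Good A) : π.dual.Good A := by
  obtain ⟨h1, h2, m, j, h3, h4, h5⟩ := h
  exact ⟨h1, Cfg.dual h2, m, j, h4, h3, h5⟩

omit [Finite G] in
theorem Good.order {A : Subgroup G} (h : π.Good A) {Γ : Type*} [Group Γ] [MulAction Γ (Fx A P)]
    [MulAction Γ (Fx A L)] (π' : PG Γ (Fx A P) (Fx A L)) : ∃ j, π.n = π'.n ^ j := by
  obtain ⟨h1, h2, m, j, h3, h4, h5⟩ := h
  exact ⟨j, by rw [h5, order_unique (h3.symm.trans π'.card_P)]⟩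

theorem F1_of_max (h : π.Two) (hodd : Odd π.n) {A : Subgroup G} (hA : π.Good A)
    (hmax : ∀ B, π.Good B → Nat.card B ≤ Nat.card A) {Γ : Type*} [Group Γ] [MulAction Γ (Fx A P)]
    [MulAction Γ (Fx A L)] {π' : PG Γ (Fx A P) (Fx A L)} (hs : π.Sub A π') : π'.F1 := by
  intro X Y hXY
  have hXY' : X.1 ≠ Y.1 := Subtype.val_injective.ne hXY
  obtain ⟨k, hk⟩ := IsPGroup.iff_card.1 hA.1
  obtain ⟨j, hj⟩ := hA.order π'
  have hodd' : Odd π'.n := by
    rcases j with _ | j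
    · have := π.hn; rw [pow_zero] at hj; omega
    · rw [hj, Nat.odd_pow_iff (by omega)] at hodd; exact hodd
  have hsq : ∀ (s : G) (γ : Γ), s ^ 2 ∈ A → (∀ y : Fx A P, (γ • y).1 = s • y.1) → γ * γ = 1 :=
    fun s γ h1 h2 => π'.faith _ fun y => Subtype.ext (by
      rw [mul_smul, h2, h2, ← mul_smul, ← pow_two, y.2 _ h1])
  have hle : A ≤ stabilizer G X.1 ⊓ stabilizer G Y.1 := fun a ha => ⟨X.2 a ha, Y.2 a ha⟩
  have hd : 2 ^ (k + 1) ∣ Nat.card ↥(stabilizer G X.1 ⊓ stabilizer G Y.1) := by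
    obtain ⟨B, s, h1, -, h3, h4, h5, h6, h7⟩ := pstep (H := ⊤) le_top hk (by
      rw [card_top, ← h.card2 hXY', pow_succ]
      refine Dvd.dvd.mul_right (mul_dvd_mul (hk ▸ card_dvd_of_le hle) ?_) _
      rw [pow_two, ← mul_add_one]
      exact (Nat.even_mul_succ_self _).two_dvd)
    obtain ⟨γ, e1, e2⟩ := hs.ind s h5
    obtain ⟨Q, R, hQR, f1, f2⟩ := π'.invol_two (hsq s γ h6 e1)
    have hQR' : Q.1 ≠ R.1 := Subtype.val_injective.ne hQR
    have := h7 (stabilizer G Q.1 ⊓ stabilizer G R.1) (fun a ha => ⟨Q.2 a ha, R.2 a ha⟩)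
      ⟨(e1 Q).symm.trans (congrArg Subtype.val f1), (e1 R).symm.trans (congrArg Subtype.val f2)⟩
    have c := (h.card2 hQR').trans (h.card2 hXY').symm
    have := π.hn
    rw [← Nat.eq_of_mul_eq_mul_right (by positivity) (Nat.eq_of_mul_eq_mul_right (by positivity) c),
      ← h3]
    exact card_dvd_of_le ‹_›
  obtain ⟨B, s, h1, h2, h3, h4, h5, h6, h7⟩ := pstep hle hk hd
  obtain ⟨γ, e1, e2⟩ := hs.ind s h5
  have hγ := hsq s γ h6 e1
  by_cases hc : γ = 1 ∨ ∀ a, ¬ π'.Axis γ a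
  · exfalso
    obtain ⟨c1, m, c2, c3, c4⟩ := π'.baer hγ hc
    have i1 := Fx.image e1 h1 h4 h7
    have i2 := Fx.image e2 h1 h4 h7
    have := hmax B ⟨IsPGroup.iff_card.2 ⟨_, h3⟩, ?_, m, if π'.n = m then j else 2 * j, ?_, ?_, ?_⟩
    · rw [h3, hk, pow_succ] at this
      have : 0 < 2 ^ k := by positivity
      omega
    · obtain ⟨p₁, p₂, p₃, l₁, l₂, l₃, hp, hl, h⟩ := c1
      simp only [hs.I] at h
      exact ⟨p₁, p₂, p₃, l₁, l₂, l₃, ⟨i1.subset ⟨_, hp.1, rfl⟩, i1.subset ⟨_, hp.2.1, rfl⟩,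
        i1.subset ⟨_, hp.2.2, rfl⟩⟩, ⟨i2.subset ⟨_, hl.1, rfl⟩, i2.subset ⟨_, hl.2.1, rfl⟩,
        i2.subset ⟨_, hl.2.2, rfl⟩⟩, h⟩
    · rw [← i1, Set.ncard_image_of_injective _ Subtype.val_injective, c2]
    · rw [← i2, Set.ncard_image_of_injective _ Subtype.val_injective, c3]
    · split_ifs with e
      · rw [hj, e]
      · rw [hj, c4.resolve_left e, pow_mul]
  push Not at hc
  obtain ⟨hγ1, a, ha⟩ := hc
  obtain ⟨c, hc, e⟩ := π'.invol_homology hodd' hγ ha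
  exact ⟨γ, c, a, ⟨hγ, hγ1, ha.cen e hc, ha, hc⟩, Subtype.ext ((e1 X).trans (h2 h4).1),
    Subtype.ext ((e1 Y).trans (h2 h4).2)⟩

theorem prime_pow_odd (h : π.Two) (hodd : Odd π.n) : ∃ p k : ℕ, p.Prime ∧ π.n = p ^ k := by
  obtain ⟨A, hA, hmax⟩ := Set.exists_max_image {A | π.Good A} (fun A => Nat.card A)
    (Set.toFinite _) ⟨⊥, IsPGroup.of_bot, π.cfg.mono (fun p _ a ha => by
      rw [mem_bot.1 ha, one_smul]) (fun p _ a ha => by rw [mem_bot.1 ha, one_smul]), π.n, 1,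
      by simp [π.card_P], by simp [π.card_L], (pow_one _).symm⟩
  obtain ⟨π', hs⟩ := hA.2.1.exists_sub
  obtain ⟨j, hj⟩ := hA.order π'.toPG
  have hodd' : Odd π'.toPG.n := by
    rcases j with _ | j
    · have := π.hn; rw [pow_zero] at hj; omega
    · rw [hj, Nat.odd_pow_iff (by omega)] at hodd; exact hodd
  obtain ⟨p, k, hp, e⟩ := prime_pow_of_F1 hodd' (F1_of_max h hodd hA hmax hs)
    (F1_of_max h.dual hodd hA.dual (fun B hB => hmax B (Good.dual (π := π.dual) hB)) hs.dual)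
  exact ⟨p, k * j, hp, by rw [hj, e, pow_mul]⟩

theorem sylow_off (h : π.Two) {p k : ℕ} [hp : Fact p.Prime] (hn : π.n = p ^ k) (S : Sylow p G)
    {l : L} (hl : ∀ g ∈ (S : Subgroup G), g • l = l) {x : P} (hx : ¬ π.I x l) :
    {b | ∃ h ∈ (S : Subgroup G), h • x = b} = {p | ¬ π.I p l} := by
  refine Set.eq_of_subset_of_ncard_le ?_ ?_
  · rintro _ ⟨g, hg, rfl⟩ e
    exact hx ((π.inv g _ _).1 ((hl g hg).symm ▸ e))
  · rw [π.card_off, hn, ← pow_mul]
    refine Nat.le_of_dvd ((Set.ncard_pos (Set.toFinite _)).2 ⟨x, 1, one_mem _, one_smul _ _⟩)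
      (dvd_orbit_of_sylow S (H := stabilizer G l) hl x ?_)
    rw [h.orb_off hx, π.card_off, hn, pow_mul]

theorem sylow_fix (h : π.Two) {p k : ℕ} [hp : Fact p.Prime] (hn : π.n = p ^ k) (S : Sylow p G)
    {l : L} {X : P} (hXl : π.I X l) (hl : ∀ g ∈ (S : Subgroup G), g • l = l)
    (hX : ∀ g ∈ (S : Subgroup G), g • X = X) {z : G} (hz : ∀ g ∈ (S : Subgroup G), g * z = z * g)
    (hzX : z • X = X) (ha : ∀ a, ¬ π.Axis z a) {y : P} (hy : z • y = y) : y = X := by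
  by_contra hne
  have key : ∀ y' ∈ {b | ∃ h ∈ (S : Subgroup G), h • y = b}, z • y' = y' := by
    rintro _ ⟨g, hg, rfl⟩
    rw [← mul_smul, ← hz g hg, mul_smul, hy]
  by_cases hyl : π.I y l
  · have : {b | ∃ h ∈ (S : Subgroup G), h • y = b} = {b | π.I b l ∧ b ≠ X} := by
      refine Set.eq_of_subset_of_ncard_le ?_ ?_
      · rintro _ ⟨g, hg, rfl⟩
        exact ⟨π.inv' hyl rfl (hl g hg), fun e => hne (smul_left_cancel g (e.trans (hX g hg).symm))⟩
      · rw [π.card_diff hXl, hn]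
        refine Nat.le_of_dvd ((Set.ncard_pos (Set.toFinite _)).2 ⟨y, 1, one_mem _, one_smul _ _⟩)
          (dvd_orbit_of_sylow S (H := stabilizer G X ⊓ stabilizer G l)
            (fun g hg => ⟨hX g hg, hl g hg⟩) y ?_)
        rw [← hn, ← π.card_diff hXl]
        apply dvd_of_eq
        congr 1
        ext b
        constructor
        · rintro ⟨hb1, hb2⟩
          obtain ⟨g, h1, h2⟩ := h X y X b (Ne.symm hne) (Ne.symm hb2)
          exact ⟨g, ⟨h1, π.eq_line hb2 (π.inv' hyl h2 rfl) (π.inv' hXl h1 rfl) hb1 hXl⟩, h2⟩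
        · rintro ⟨g, hg, rfl⟩
          exact ⟨π.inv' hyl rfl hg.2, fun e => hne (smul_left_cancel g (e.trans hg.1.symm))⟩
    refine ha l fun b hb => ?_
    by_cases e : b = X
    · rw [e, hzX]
    · exact key b (this.symm.subset ⟨hb, e⟩)
  · rw [sylow_off h hn S hl hyl] at key
    obtain ⟨m, hm, hml, -⟩ := π.exists_line X l l
    refine ha m fun b hb => ?_
    by_cases e : b = X
    · rw [e, hzX]
    · exact key b fun hbl => e (π.eq_pt hml hb hm hbl hXl)

theorem exists_axis_odd (h : π.Two) (hodd : Odd π.n) : ∃ g : G, g ≠ 1 ∧ ∃ a, π.Axis g a := by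
  obtain ⟨p, k, hp, hn⟩ := prime_pow_odd h hodd
  haveI := Fact.mk hp
  have hpn : p ∣ π.n := by
    rcases k with _ | k
    · have := π.hn; rw [pow_zero] at hn; omega
    · rw [hn]; exact dvd_pow_self _ (by omega)
  have hp2 : p ≠ 2 := by rintro rfl; exact (Nat.not_even_iff_odd.2 hodd) (even_iff_two_dvd.2 hpn)
  have hp1 : ¬ p ∣ π.n + 1 := fun h => hp.one_lt.ne' (Nat.dvd_one.1 ((Nat.dvd_add_right hpn).1 h))
  obtain ⟨S⟩ : Nonempty (Sylow p G) := inferInstance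
  obtain ⟨X, -, hX⟩ := exists_fixed_of_pgroup (Y := P) S.2 Set.univ (fun _ _ _ _ => trivial) (by
    rw [Set.ncard_univ, π.card_P, add_assoc, Nat.dvd_add_right (hpn.trans (dvd_pow_self _ two_ne_zero))]
    exact hp1)
  obtain ⟨l, hXl, hl⟩ := exists_fixed_of_pgroup (Y := L) S.2 {l | π.I X l}
    (fun a ha l hl => π.inv' hl (hX a ha) rfl) (by rw [π.cP]; exact hp1)
  obtain ⟨O, hO⟩ := π.exists_off l
  have h1 : p ∣ Nat.card (S : Subgroup G) := S.dvd_card_of_dvd_card (by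
    rw [← h.card_anti hO]
    exact ((hpn.trans (dvd_pow_self _ two_ne_zero)).mul_left _).mul_right _)
  obtain ⟨z, hz, hz1, hzc⟩ := Local.exists_ne_one_mem_centralizer_of_isPGroup S.2 le_normalizer h1
  by_contra hno
  push Not at hno
  have ha := hno z hz1
  have hc : ∀ c, ¬ π.Cen z c := fun c hc => by
    obtain ⟨a, h⟩ := hc.exists_axis; exact ha a h
  have hP : ∀ w : G, w ≠ 1 → (∀ g ∈ (S : Subgroup G), g * w = w * g) → w • X = X → ∀ y : P, w • y = y → y = X :=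
    fun w hw1 hw hwX y hy => sylow_fix h hn S hXl hl hX hw hwX (hno w hw1) hy
  have hL : ∀ w : G, w ≠ 1 → (∀ g ∈ (S : Subgroup G), g * w = w * g) → w • l = l → ∀ y : L, w • y = y → y = l :=
    fun w hw1 hw hwX y hy => sylow_fix (π := π.dual) h.dual hn S hXl hX hl hw hwX (fun c hc => by
      obtain ⟨a, h⟩ := Cen.exists_axis hc; exact hno w hw1 a h) hy
  have hz2 : z * z ≠ 1 := by
    intro e
    obtain ⟨j, hj⟩ := S.2.exists_card_eq
    have h2 : orderOf z = 2 := orderOf_eq_prime (by rw [pow_two, e]) hz1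
    have := Local.orderOf_dvd_card_of_mem hz
    rw [h2, hj] at this
    exact hp2 ((Nat.prime_dvd_prime_iff_eq Nat.prime_two hp).1 (Nat.prime_two.dvd_of_dvd_pow this)).symm
  have hzz : ∀ g ∈ (S : Subgroup G), g * (z * z) = z * z * g := fun g hg => by
    rw [← mul_assoc, hzc g hg, mul_assoc, hzc g hg, mul_assoc]
  have hOX : O ≠ X := by rintro rfl; exact hO hXl
  have hzO : z • O ≠ O := fun e => hOX (hP z hz1 hzc (hX z hz) O e)
  have hzO' : ¬ π.I (z • O) l := fun e => hO ((π.inv z _ _).1 ((hl z hz).symm ▸ e))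
  obtain ⟨l2, a1, a2⟩ := π.join _ _ hzO
  obtain ⟨l3, b1, b2⟩ := π.join _ _ hOX
  let E := (S : Subgroup G) ⊓ stabilizer G O
  have hEz : ∀ a ∈ E, ∀ y : P, a • y = y → a • z • y = z • y := fun a ha y hy => by
    rw [← mul_smul, hzc a ha.1, mul_smul, hy]
  have hl3 : ∀ w : G, w • X = X → π.I (w • O) l3 → w • l3 = l3 := fun w h1 h2 =>
    π.eq_line (p := w • O) (q := X) (fun e => hOX (smul_left_cancel w (e.trans h1.symm)))
      (π.inv' b1 rfl rfl) (π.inv' b2 h1 rfl) h2 b2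
  have hpl : π.Planar E := by
    refine ⟨z • z • O, O, z • O, l, l2, l3, ⟨fun a ha => hEz a ha _ (hEz a ha _ ha.2),
      fun a ha => ha.2, fun a ha => hEz a ha _ ha.2⟩, ⟨fun a ha => hl a ha.1,
      fun a ha => π.fix_line hzO (hEz a ha _ ha.2) ha.2 a1 a2,
      fun a ha => π.fix_line hOX ha.2 (hX a ha.1) b1 b2⟩, fun e => ?_, fun e => ?_, hO, a2, b1,
      hzO', a1, fun e => ?_⟩
    · have := hL z hz1 hzc (hl z hz) l2 (π.eq_line (p := z • z • O) (q := z • O)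
        (fun e => hzO (smul_left_cancel z e)) (π.inv' a1 rfl rfl) (π.inv' a2 rfl rfl) e a1)
      exact hO (this ▸ a2)
    · have := hL _ hz2 hzz (hl _ (mul_mem hz hz)) l3 (hl3 _ (hX _ (mul_mem hz hz))
        (by rwa [mul_smul]))
      exact hO (this ▸ b1)
    · exact hO (hL z hz1 hzc (hl z hz) l3 (hl3 _ (hX _ hz) e) ▸ b1)
  obtain ⟨π', hs⟩ := hpl.exists_sub
  obtain ⟨e, he⟩ := IsPGroup.iff_card.1 (S.2.to_inf_left (K := stabilizer G O))
  have hn2 := π.hn
  have c1 := h.card_anti hO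
  have c2 := h.card2 hOX
  have hd : p ^ (e + 1) ∣ Nat.card ↥(stabilizer G O ⊓ stabilizer G X) := by
    have c3 := Nat.eq_of_mul_eq_mul_right (by positivity) (c1.trans c2.symm)
    have c4 : Nat.card ↥(stabilizer G l ⊓ stabilizer G O) * π.n =
        Nat.card ↥(stabilizer G O ⊓ stabilizer G X) * (π.n + 1) :=
      Nat.eq_of_mul_eq_mul_right (show 0 < π.n by omega) (by linarith)
    refine Nat.Coprime.dvd_of_dvd_mul_right
      (Nat.Coprime.pow_left _ ((Nat.Prime.coprime_iff_not_dvd hp).2 hp1)) ?_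
    rw [← c4, pow_succ, ← he]
    exact mul_dvd_mul (card_dvd_of_le fun a ha => ⟨hl a ha.1, ha.2⟩) hpn
  obtain ⟨B, s, g1, g2, g3, g4, g5, g6, g7⟩ := pstep (A := E)
    (H := stabilizer G O ⊓ stabilizer G X) (fun a ha => ⟨ha.2, hX a ha.1⟩) he hd
  obtain ⟨γ, e1, e2⟩ := hs.ind s g5
  have i1 := Fx.image e1 g1 g4 g7
  have i2 := Fx.image e2 g1 g4 g7
  have c5 := π'.toPG.fix_eq γ
  rw [← Set.ncard_image_of_injective _ Subtype.val_injective, i1,
    ← Set.ncard_image_of_injective _ Subtype.val_injective, i2] at c5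
  have c6 : 1 < {y : L | ∀ a ∈ B, a • y = y}.ncard := c5 ▸ (Set.one_lt_ncard (Set.toFinite _)).2
    ⟨O, fun a ha => (g2 ha).1, X, fun a ha => (g2 ha).2, hOX⟩
  obtain ⟨m, hm, hml⟩ := Set.exists_ne_of_one_lt_ncard c6 l3
  obtain ⟨Y, hY1, hY2⟩ : ∃ Y, (∀ a ∈ B, a • Y = Y) ∧ ¬ π.I Y m := by
    by_cases e : π.I O m
    · exact ⟨X, fun a ha => (g2 ha).2, fun h => hml (π.eq_line hOX e h b1 b2)⟩
    · exact ⟨O, fun a ha => (g2 ha).1, e⟩
  have c7 := h.card_anti hY2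
  have c8 : p ^ (e + 1) * π.n ^ 2 ∣ Nat.card G := by
    rw [← c7, ← g3]
    exact (mul_dvd_mul (card_dvd_of_le (show B ≤ stabilizer G m ⊓ stabilizer G Y from
      fun a ha => ⟨hm a ha, hY1 a ha⟩)) dvd_rfl).mul_right _
  rw [hn, ← pow_mul, ← pow_add] at c8
  have c9 := S.pow_dvd_card_of_pow_dvd_card c8
  rw [← Pres.card_inf_stabilizer_mul (S : Subgroup G) O, sylow_off h hn S hl hO, π.card_off, he, hn,
    ← pow_mul, ← pow_add, Nat.pow_dvd_pow_iff_le_right hp.one_lt] at c9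
  omega

theorem exists_cen (h : π.Two) : ∃ g : G, g ≠ 1 ∧ ∃ c, π.Cen g c := by
  obtain ⟨g, h1, a, ha⟩ := (Nat.even_or_odd π.n).elim (exists_axis_even h) (exists_axis_odd h)
  exact ⟨g, h1, ha.exists_cen⟩

end PG

end Cfsg.Agent.Geom
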