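import Cfsg.Agent.Geom.Plane4

/-!
The Ostrom–Wagner theorem.
-/

set_option autoImplicit false

namespace Cfsg.Agent.Geom

open MulAction Subgroup
open scoped LinearAlgebra.Projectivization

theorem PG.coord {G P L : Type*} [Group G] [MulAction G P] [MulAction G L] [Finite G] [Finite P]
    [Finite L] (π : PG G P L) (h : π.Two) :
    ∃ (F : Type) (_ : Field F) (_ : Fintype F) (d : ℕ) (φ : P ≃ ℙ F (Fin d → F)),
    3 ≤ d ∧ (∀ x y z l, x ≠ y → π.I x l → π.I y l →
      (π.I z l ↔ (φ z).submodule ≤ (φ x).submodule ⊔ (φ y).submodule)) := by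
  obtain ⟨g, hg1, c, hc⟩ := PG.exists_cen h
  obtain ⟨p0⟩ := π.neP
  obtain ⟨l1, l2, hl, -⟩ := π.dual.exists_two p0
  let D : GD G L P :=
    { I := fun l p => π.I p l, k := π.n + 1, l := 1, cP := π.cL, cB := π.cP
      lP := fun x y h => π.toPP.dual.card_two h
      lB := fun x y h => π.card_two h
      hk := by have := π.hn; omega
      card := π.card_L.trans π.card_P.symm
      inv := fun g l p => π.inv g p l
      faith := π.faithL
      two := h.dual
      ntriv := ⟨⟨l1, l2, hl⟩⟩ }
  obtain ⟨S, hS⟩ := D.exists_ON (A := c) hc hg1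
  obtain ⟨F, iF, iFin, d, φ, hd, hL, -⟩ := S.main
  refine ⟨F, iF, iFin, d, φ, hd, fun x y z l hxy hx hy => ?_⟩
  rw [← hL x y z hxy]
  constructor
  · intro hz
    refine S.mem_L_of_fix hxy fun n hn e => ?_
    rcases hS x n hn with rfl | ht
    · exact one_smul _ _
    by_cases hn1 : n = 1
    · rw [hn1, one_smul]
    have h1 : π.Cen n x := ht.1
    obtain ⟨a, ha⟩ := h1.exists_axis
    have h2 : π.I x a := by
      by_contra h2; exact ht.2 a h2 ha.fix
    have h3 := (PG.fix_cases ha h1 hn1 e).resolve_left hxy.symm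
    exact ha z (π.eq_line hxy hx hy h2 h3 ▸ hz)
  · rintro (rfl | ⟨n, hn, rfl⟩)
    · exact hx
    · rcases hS x n hn with rfl | ht
      · rwa [one_smul]
      · exact π.inv' hy rfl (ht.1 l hx)

theorem finrank_sup_two {F V : Type*} [Field F] [AddCommGroup V] [Module F V] {x y : ℙ F V}
    (h : x ≠ y) : Module.finrank F ↥(x.submodule ⊔ y.submodule) = 2 := by
  have h1 := Submodule.finrank_sup_add_finrank_inf_eq x.submodule y.submodule
  have h2 : x.submodule ⊓ y.submodule = ⊥ := by
    by_contra h2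
    have h3 : 1 ≤ Module.finrank F ↥(x.submodule ⊓ y.submodule) :=
      Nat.one_le_iff_ne_zero.2 fun e => h2 (Submodule.finrank_eq_zero.1 e)
    have a := Submodule.eq_of_le_of_finrank_le (inf_le_left (a := x.submodule) (b := y.submodule))
      (by rw [x.finrank_submodule]; exact h3)
    have b := Submodule.eq_of_le_of_finrank_le (inf_le_right (a := x.submodule) (b := y.submodule))
      (by rw [y.finrank_submodule]; exact h3)
    exact h (Projectivization.submodule_injective (a.symm.trans b))
  rw [h2, finrank_bot, x.finrank_submodule, y.finrank_submodule] at h1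
  omega

theorem PG.main {G P L : Type*} [Group G] [MulAction G P] [MulAction G L] [Finite G] [Finite P]
    [Finite L] (π : PG G P L) (h : π.Two) :
    ∃ (F : Type) (_ : Field F) (_ : Fintype F) (φ : P ≃ Projectivization F (Fin 3 → F)),
      (∀ l : L, ∃ W : Submodule F (Fin 3 → F), Module.finrank F W = 2 ∧
          ∀ p : P, π.I p l ↔ (φ p).submodule ≤ W) ∧
      (∀ W : Submodule F (Fin 3 → F), Module.finrank F W = 2 →
          ∃ l : L, ∀ p : P, π.I p l ↔ (φ p).submodule ≤ W) := by
  classical
  obtain ⟨F, iF, iFin, d, φ, hd, hL⟩ := π.coord h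
  obtain rfl : d = 3 := by
    by_contra hd3
    have hne : ∀ i : Fin d, (Pi.single i 1 : Fin d → F) ≠ 0 := fun i e => by
      simpa using congrFun e i
    let e : Fin d → P := fun i => φ.symm (Projectivization.mk F (Pi.single i 1) (hne i))
    have he : ∀ i, (φ (e i)).submodule = F ∙ (Pi.single i 1 : Fin d → F) := fun i => by
      simp [e]
    have key : ∀ i j k : Fin d, k ≠ i → k ≠ j →
        ∀ v ∈ (φ (e i)).submodule ⊔ (φ (e j)).submodule, v k = 0 := by
      intro i j k h1 h2 v hv
      rw [he, he, Submodule.mem_sup] at hv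
      obtain ⟨a, ha, b, hb, rfl⟩ := hv
      obtain ⟨s, rfl⟩ := Submodule.mem_span_singleton.1 ha
      obtain ⟨t, rfl⟩ := Submodule.mem_span_singleton.1 hb
      simp [h1, h2]
    have hee : ∀ i j, i ≠ j → e i ≠ e j := by
      intro i j hij h
      have := key j j i hij hij (Pi.single i 1) (Submodule.mem_sup_left (by
        rw [← h, he]; exact Submodule.mem_span_singleton_self _))
      simp at this
    let i0 : Fin d := ⟨0, by omega⟩
    let i1 : Fin d := ⟨1, by omega⟩
    let i2 : Fin d := ⟨2, by omega⟩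
    let i3 : Fin d := ⟨3, by omega⟩
    have n01 := hee i0 i1 (by simp [i0, i1])
    have n23 := hee i2 i3 (by simp [i2, i3])
    obtain ⟨l, a1, a2⟩ := π.join _ _ n01
    obtain ⟨m, b1, b2⟩ := π.join _ _ n23
    obtain ⟨z, c1, c2⟩ : ∃ z, π.I z l ∧ π.I z m := by
      by_cases hlm : l = m
      · exact ⟨_, a1, hlm ▸ a1⟩
      · exact π.meet l m hlm
    have d1 := (hL _ _ z l n01 a1 a2).1 c1
    have d2 := (hL _ _ z m n23 b1 b2).1 c2
    have hz : (φ z).rep ∈ (φ z).submodule := by
      rw [Projectivization.submodule_eq]; exact Submodule.mem_span_singleton_self _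
    refine (φ z).rep_nonzero (funext fun k => ?_)
    by_cases hk : k.1 ≤ 1
    · exact key i2 i3 k (by rintro rfl; simp [i2] at hk) (by rintro rfl; simp [i3] at hk) _ (d2 hz)
    · exact key i0 i1 k (by rintro rfl; simp [i0] at hk) (by rintro rfl; simp [i1] at hk) _ (d1 hz)
  refine ⟨F, iF, iFin, φ, fun l => ?_, fun W hW => ?_⟩
  · obtain ⟨x, y, hxy, hx, hy⟩ := π.exists_two l
    exact ⟨_, finrank_sup_two (φ.injective.ne hxy), fun p => hL x y p l hxy hx hy⟩
  · obtain ⟨U, hU, h1⟩ : ∃ U ≤ W, Module.finrank F U = 1 := by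
      obtain ⟨u, hu, hu0⟩ := W.exists_mem_ne_zero_of_ne_bot (by
        rintro rfl; rw [finrank_bot] at hW; omega)
      exact ⟨F ∙ u, (Submodule.span_singleton_le_iff_mem _ _).2 hu, finrank_span_singleton hu0⟩
    obtain ⟨v, hv, hvU⟩ : ∃ v ∈ W, v ∉ U := by
      by_contra! h
      rw [le_antisymm hU h] at h1; omega
    have hv0 : v ≠ 0 := by rintro rfl; exact hvU U.zero_mem
    let x := φ.symm (Projectivization.mk'' U h1)
    let y := φ.symm (Projectivization.mk F v hv0)
    have hx : (φ x).submodule = U := by simp [x]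
    have hy : (φ y).submodule = F ∙ v := by simp [y]
    have hxy : x ≠ y := by
      intro e
      rw [e, hy] at hx
      exact hvU (hx ▸ Submodule.mem_span_singleton_self _)
    obtain ⟨l, a, b⟩ := π.join x y hxy
    refine ⟨l, fun p => ?_⟩
    rw [hL x y p l hxy a b, Submodule.eq_of_le_of_finrank_eq (show _ ≤ W from sup_le (hx ▸ hU)
      (by rw [hy, Submodule.span_singleton_le_iff_mem]; exact hv))
      ((finrank_sup_two (φ.injective.ne hxy)).trans hW.symm)]

end Cfsg.Agent.Geom
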